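import Mathlib
import Cfsg.Prelude.Def_OddOrderLocal
import Cfsg.Prelude.Def_Solvable
import Cfsg.Statements.S1350
import Cfsg.Statements.S1351
import Cfsg.Statements.S1352
import Cfsg.Statements.S1354
import Cfsg.Statements.S1355
import Cfsg.Statements.S1361
import Cfsg.Statements.S1362
import Cfsg.Statements.S1365
import Cfsg.Statements.S1370
import Cfsg.Statements.S1371
import Cfsg.Statements.S1374
import Cfsg.Statements.S1375
import Cfsg.Statements.S1376
import Cfsg.Statements.S1378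
import Cfsg.Statements.S1380
import Cfsg.Statements.S1381
import Cfsg.Statements.S1382
import Cfsg.Statements.S1383
import Cfsg.Statements.S1403
import Cfsg.Statements.S1436
import Cfsg.Statements.S1437

/-!
# S1391 (tame embedding of the sets `A(M)`, `A₀(M)`): package statements

Team project led by helper65.  Each `Lem…` below is the exact statement of one package; a package
is a theorem `… : Cfsg.Agent.Lib.Helper65.BG91.Lem….{u}` proved in the taker's own Lib file.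
All hypotheses `_h13xx` are the frozen statements for the same group (via `type_of%`).
-/

set_option autoImplicit false

namespace Cfsg.Agent.Lib.Helper65.BG91

open Cfsg

universe u

/-- Package Norm (pure).  A subset `S` of a maximal subgroup `M` which is `M`-invariant and
contains a non-identity element has normalizer `M`. -/
def LemNorm : Prop :=
  ∀ {G : Type u} [Group G] [Finite G] (_hG : Cfsg.IsMinSimpleOddOrder G)
    (M : Subgroup G) (_hM : IsCoatom M) (S : Set G), S ⊆ (M : Set G) →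
    (∀ m ∈ M, ∀ s ∈ S, m * s * m⁻¹ ∈ S) → (∃ s ∈ S, s ≠ 1) → Subgroup.normalizer S = M

/-- Package Frob (pure).  In a finite group with a Frobenius complement `E`, the Frobenius kernel
is the largest normal nilpotent Hall subgroup. -/
def LemFrob : Prop :=
  ∀ {X : Type u} [Group X] [Finite X] (E : Subgroup X), Cfsg.IsFrobeniusComplement E →
    Cfsg.frobeniusKernel E = ((Cfsg.fittingHall X : Subgroup X) : Set X)

/-- Package TR1.  `M_s = M_σ` for every maximal subgroup. -/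
def LemTR1 : Prop :=
  ∀ {G : Type u} [Group G] [Finite G] (hG : Cfsg.IsMinSimpleOddOrder G)
    (_h1351 : type_of% (@Cfsg.CfsgFrozen.S1351 G _ _ hG))
    (_h1352 : type_of% (@Cfsg.CfsgFrozen.S1352 G _ _ hG))
    (_h1365 : type_of% (@Cfsg.CfsgFrozen.S1365 G _ _ hG))
    (_h1382 : type_of% (@Cfsg.CfsgFrozen.S1382 G _ _ hG))
    (_h1437 : type_of% (@Cfsg.CfsgFrozen.S1437 G _ _ hG))
    (M : Subgroup G) (_hM : IsCoatom M), Cfsg.typeCore M = Cfsg.sigmaCore M

/-- Package TR2.  `A(M) = (M̂_σ ∩ U M_σ) \ {1}`. -/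
def LemTR2 : Prop :=
  ∀ {G : Type u} [Group G] [Finite G] (hG : Cfsg.IsMinSimpleOddOrder G)
    (_h1351 : type_of% (@Cfsg.CfsgFrozen.S1351 G _ _ hG))
    (_h1352 : type_of% (@Cfsg.CfsgFrozen.S1352 G _ _ hG))
    (_h1355 : type_of% (@Cfsg.CfsgFrozen.S1355 G _ _ hG))
    (_h1365 : type_of% (@Cfsg.CfsgFrozen.S1365 G _ _ hG))
    (_h1380 : type_of% (@Cfsg.CfsgFrozen.S1380 G _ _ hG))
    (_h1382 : type_of% (@Cfsg.CfsgFrozen.S1382 G _ _ hG))
    (_h1437 : type_of% (@Cfsg.CfsgFrozen.S1437 G _ _ hG))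
    (M : Subgroup G) (_hM : IsCoatom M) (K U : Subgroup G)
    (_hKU : Cfsg.IsSigmaDecomposition M K U),
    Cfsg.typeA M = Cfsg.sigmaA M U \ {1}

/-- Package TR3.  `A₀(M) = A₀-in-σ-language \ {1}`. -/
def LemTR3 : Prop :=
  ∀ {G : Type u} [Group G] [Finite G] (hG : Cfsg.IsMinSimpleOddOrder G)
    (_h1350 : type_of% (@Cfsg.CfsgFrozen.S1350 G _ _ hG))
    (_h1351 : type_of% (@Cfsg.CfsgFrozen.S1351 G _ _ hG))
    (_h1352 : type_of% (@Cfsg.CfsgFrozen.S1352 G _ _ hG))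
    (_h1354 : type_of% (@Cfsg.CfsgFrozen.S1354 G _ _ hG))
    (_h1355 : type_of% (@Cfsg.CfsgFrozen.S1355 G _ _ hG))
    (_h1365 : type_of% (@Cfsg.CfsgFrozen.S1365 G _ _ hG))
    (_h1371 : type_of% (@Cfsg.CfsgFrozen.S1371 G _ _ hG))
    (_h1380 : type_of% (@Cfsg.CfsgFrozen.S1380 G _ _ hG))
    (_h1381 : type_of% (@Cfsg.CfsgFrozen.S1381 G _ _ hG))
    (_h1382 : type_of% (@Cfsg.CfsgFrozen.S1382 G _ _ hG))
    (_h1383 : type_of% (@Cfsg.CfsgFrozen.S1383 G _ _ hG))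
    (_h1437 : type_of% (@Cfsg.CfsgFrozen.S1437 G _ _ hG))
    (M : Subgroup G) (_hM : IsCoatom M) (K U : Subgroup G)
    (_hKU : Cfsg.IsSigmaDecomposition M K U),
    Cfsg.typeA0 M = Cfsg.sigmaA0 M K \ {1}

/-- Package Fus.  `M` controls `G`-fusion in `A₀(M)` (σ-language). -/
def LemFus : Prop :=
  ∀ {G : Type u} [Group G] [Finite G] (hG : Cfsg.IsMinSimpleOddOrder G)
    (_h1350 : type_of% (@Cfsg.CfsgFrozen.S1350 G _ _ hG))
    (_h1352 : type_of% (@Cfsg.CfsgFrozen.S1352 G _ _ hG))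
    (_h1362 : type_of% (@Cfsg.CfsgFrozen.S1362 G _ _ hG))
    (_h1371 : type_of% (@Cfsg.CfsgFrozen.S1371 G _ _ hG))
    (_h1374 : type_of% (@Cfsg.CfsgFrozen.S1374 G _ _ hG))
    (M : Subgroup G) (_hM : IsCoatom M) (K U : Subgroup G)
    (_hKU : Cfsg.IsSigmaDecomposition M K U),
    ∀ x ∈ Cfsg.sigmaA0 M K, x ≠ 1 → ∀ g : G, g * x * g⁻¹ ∈ Cfsg.sigmaA0 M K →
      ∃ m ∈ M, m * x * m⁻¹ = g * x * g⁻¹

/-- Package Cent.  An element of `A₀(M)` whose centralizer is not inside `M` lies in `M_σ`. -/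
def LemCent : Prop :=
  ∀ {G : Type u} [Group G] [Finite G] (hG : Cfsg.IsMinSimpleOddOrder G)
    (_h1350 : type_of% (@Cfsg.CfsgFrozen.S1350 G _ _ hG))
    (_h1352 : type_of% (@Cfsg.CfsgFrozen.S1352 G _ _ hG))
    (_h1361 : type_of% (@Cfsg.CfsgFrozen.S1361 G _ _ hG))
    (_h1370 : type_of% (@Cfsg.CfsgFrozen.S1370 G _ _ hG))
    (_h1371 : type_of% (@Cfsg.CfsgFrozen.S1371 G _ _ hG))
    (M : Subgroup G) (_hM : IsCoatom M) (K U : Subgroup G)
    (_hKU : Cfsg.IsSigmaDecomposition M K U),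
    ∀ x ∈ Cfsg.sigmaA0 M K, x ≠ 1 → ¬ Subgroup.centralizer ({x} : Set G) ≤ M →
      x ∈ Cfsg.sigmaCore M

/-- Package Cop.  For `x ∈ M_σ` with `C_G(x)` not in `M` and `L` the maximal subgroup over
`C_G(x)`: the order of `L_σ` is coprime to the order of `C_M(y)` for every `y ∈ A₀(M)`. -/
def LemCop : Prop :=
  ∀ {G : Type u} [Group G] [Finite G] (hG : Cfsg.IsMinSimpleOddOrder G)
    (_h1350 : type_of% (@Cfsg.CfsgFrozen.S1350 G _ _ hG))
    (_h1351 : type_of% (@Cfsg.CfsgFrozen.S1351 G _ _ hG))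
    (_h1352 : type_of% (@Cfsg.CfsgFrozen.S1352 G _ _ hG))
    (_h1375 : type_of% (@Cfsg.CfsgFrozen.S1375 G _ _ hG))
    (_h1378 : type_of% (@Cfsg.CfsgFrozen.S1378 G _ _ hG))
    (_h1403 : type_of% (@Cfsg.CfsgFrozen.S1403 G _ _ hG))
    (_h1436 : type_of% (@Cfsg.CfsgFrozen.S1436 G _ _ hG))
    (M : Subgroup G) (_hM : IsCoatom M) (K U : Subgroup G)
    (_hKU : Cfsg.IsSigmaDecomposition M K U)
    (x : G) (_hx : x ∈ Cfsg.sigmaCore M) (_hx1 : x ≠ 1)
    (_hxM : ¬ Subgroup.centralizer ({x} : Set G) ≤ M)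
    (L : Subgroup G) (_hL : IsCoatom L) (_hxL : Subgroup.centralizer ({x} : Set G) ≤ L),
    ∀ y ∈ Cfsg.sigmaA0 M K, y ≠ 1 →
      (Nat.card (Cfsg.sigmaCore L)).Coprime (Nat.card ↥(M ⊓ Subgroup.centralizer ({y} : Set G)))

end Cfsg.Agent.Lib.Helper65.BG91
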