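import Mathlib
import Cfsg.Agent.S1453
import Cfsg.Agent.Lib.Helper24.PRank
import Cfsg.Agent.Lib.Helper23.PGroupEA
import Cfsg.Agent.Lib.Helper47.Frat2

/-!
# BG Lemma 10.3, the `p`-group part

`Q` a `q`-group (`q` odd) of rank at least 3, `X` a `q'`-group normalizing `Q`, `B ≤ C_Q(X)`
elementary abelian of order `q ^ 2`.  Then some elementary abelian `W ≤ C_Q(X)` of order `q ^ 2`
has `r(C(W)) ≥ 3`.
-/

set_option autoImplicit false

namespace Cfsg.Agent.Lib.Helper65.BG

open scoped commutatorElement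
open Cfsg.Agent.Lib.Helper23

/-- powers of a commutator that commutes with its first entry -/
theorem comm_pow_of_commute {G : Type*} [Group G] (w g : G)
    (h1 : Commute (w * g * w⁻¹ * g⁻¹) w) (n : ℕ) :
    w ^ n * g * (w ^ n)⁻¹ * g⁻¹ = (w * g * w⁻¹ * g⁻¹) ^ n := by
  induction n with
  | zero => simp
  | succ n ih =>
    have hc : Commute ((w * g * w⁻¹ * g⁻¹) ^ n) w := h1.pow_left n
    calc w ^ (n + 1) * g * (w ^ (n + 1))⁻¹ * g⁻¹
        = w * (w ^ n * g * (w ^ n)⁻¹ * g⁻¹) * (g * w⁻¹ * g⁻¹) := by rw [pow_succ']; group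
      _ = w * (w * g * w⁻¹ * g⁻¹) ^ n * (g * w⁻¹ * g⁻¹) := by rw [ih]
      _ = (w * g * w⁻¹ * g⁻¹) ^ n * w * (g * w⁻¹ * g⁻¹) := by rw [hc.eq]
      _ = (w * g * w⁻¹ * g⁻¹) ^ n * (w * g * w⁻¹ * g⁻¹) := by group
      _ = (w * g * w⁻¹ * g⁻¹) ^ (n + 1) := (pow_succ _ n).symm

/-- the subgroup generated by the elements of order dividing `q` of a characteristic subgroup is
characteristic -/
theorem omega_characteristic {R : Type*} [Group R] (q : ℕ) (K : Subgroup R) [hK : K.Characteristic] :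
    (Subgroup.closure {x : R | x ∈ K ∧ x ^ q = 1}).Characteristic := by
  rw [Subgroup.characteristic_iff_map_le]
  intro φ
  rw [MonoidHom.map_closure, Subgroup.closure_le]
  rintro _ ⟨x, ⟨hxK, hxq⟩, rfl⟩
  apply Subgroup.subset_closure
  refine ⟨?_, ?_⟩
  · have h1 := Subgroup.characteristic_iff_map_eq.mp hK φ
    rw [← h1]
    exact ⟨x, hxK, rfl⟩
  · show (φ x) ^ q = 1
    rw [← map_pow, hxq, map_one]

/-- The structure of a `q`-group of rank at least 3 with a maximal elementary abelian subgroup of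
order `q ^ 2`, read inside the ambient group. -/
theorem exists_W_of_maximal {G : Type*} [Group G] [Finite G] {q : ℕ} [Fact q.Prime] (hq2 : q ≠ 2)
    (Q B : Subgroup G) (hQ : IsPGroup q Q) (hQr : ¬ Cfsg.PRankLE q 2 Q) (hBQ : B ≤ Q)
    (hB : Cfsg.IsElementaryAbelian q B) (hB2 : Nat.card B = q ^ 2)
    (hBmax : ∀ B' : Subgroup G, B' ≤ Q → Cfsg.IsElementaryAbelian q B' → B ≤ B' → B' = B) :
    ∃ W Z : Subgroup G, W ≤ Q ∧ Cfsg.IsElementaryAbelian q W ∧ Nat.card W = q ^ 2 ∧
      Z ≤ W ∧ Nat.card Z = q ∧ (∀ z ∈ Z, ∀ g ∈ Q, z * g = g * z) ∧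
      (∃ b ∈ B, ∃ w ∈ W, b * w ≠ w * b) ∧
      (∀ w ∈ W, ∀ g ∈ Q, w * g * w⁻¹ * g⁻¹ ∈ Z) ∧
      (∀ x ∈ Subgroup.normalizer (Q : Set G), ∀ w ∈ W, x * w * x⁻¹ ∈ W) ∧
      (Subgroup.centralizer (W : Set G)).relIndex Q = q := by
  classical
  have hq : q.Prime := Fact.out
  -- transfer to the type `Q`
  have hE : Cfsg.IsElementaryAbelian q (B.subgroupOf Q) := by
    refine ⟨?_, ?_⟩
    · rw [isMulCommutative_iff]
      rintro ⟨a, ha⟩ ⟨b, hb⟩
      apply Subtype.ext
      apply Subtype.ext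
      rw [Subgroup.mem_subgroupOf] at ha hb
      exact isEA_comm hB ha hb
    · intro a ha
      rw [Subgroup.mem_subgroupOf] at ha
      apply Subtype.ext
      exact hB.2 _ ha
  have hE2 : Nat.card (B.subgroupOf Q) = q ^ 2 := by
    rw [Nat.card_congr (Subgroup.subgroupOfEquivOfLe hBQ).toEquiv, hB2]
  have hEmax : ∀ B' : Subgroup Q, Cfsg.IsElementaryAbelian q B' → B.subgroupOf Q ≤ B' →
      B' = B.subgroupOf Q := by
    intro B' hB' hle
    have h1 : Cfsg.IsElementaryAbelian q (B'.map Q.subtype) := by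
      refine ⟨?_, ?_⟩
      · rw [isMulCommutative_iff]
        rintro ⟨_, ⟨a, ha, rfl⟩⟩ ⟨_, ⟨b, hb, rfl⟩⟩
        apply Subtype.ext
        have := isEA_comm hB' ha hb
        show (a : G) * (b : G) = (b : G) * (a : G)
        exact congrArg Subtype.val this
      · rintro _ ⟨a, ha, rfl⟩
        have := hB'.2 a ha
        exact congrArg Subtype.val this
    have h2 : B ≤ B'.map Q.subtype := by
      intro b hb
      exact ⟨⟨b, hBQ hb⟩, hle (Subgroup.mem_subgroupOf.mpr hb), rfl⟩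
    have h3 := hBmax _ (Subgroup.map_subtype_le B') h1 h2
    ext x
    rw [Subgroup.mem_subgroupOf, ← h3]
    constructor
    · intro hx
      exact ⟨x, hx, rfl⟩
    · rintro ⟨y, hy, hyx⟩
      have : y = x := Subtype.ext hyx
      rwa [← this]
  obtain ⟨h1, h2, ⟨h3, h3'⟩, h4, h5⟩ :=
    Cfsg.Agent.S1453.result (R := Q) q hq2 hQ hQr (B.subgroupOf Q) hE hE2 hEmax
  set W' : Subgroup Q :=
    Subgroup.closure {x : Q | x ∈ Subgroup.upperCentralSeries Q 2 ∧ x ^ q = 1} with hW'
  set Z' : Subgroup Q := Subgroup.closure {x : Q | x ∈ Subgroup.center Q ∧ x ^ q = 1} with hZ'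
  have hW'Z2 : W' ≤ Subgroup.upperCentralSeries Q 2 := by
    rw [hW', Subgroup.closure_le]
    exact fun x hx => hx.1
  have hZ'cen : Z' ≤ Subgroup.center Q := by
    rw [hZ', Subgroup.closure_le]
    exact fun x hx => hx.1
  have hZ'W' : Z' ≤ W' := by
    rw [hZ']
    apply Subgroup.closure_mono
    rintro x ⟨hx, hxq⟩
    refine ⟨?_, hxq⟩
    have hmono : Subgroup.upperCentralSeries Q 1 ≤ Subgroup.upperCentralSeries Q 2 :=
      Subgroup.upperCentralSeries_mono Q (by norm_num)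
    apply hmono
    rw [Subgroup.upperCentralSeries_one]
    exact hx
  have hchar : W'.Characteristic := omega_characteristic q (Subgroup.upperCentralSeries Q 2)
  refine ⟨W'.map Q.subtype, Z'.map Q.subtype, Subgroup.map_subtype_le W', ?_, ?_,
    Subgroup.map_mono hZ'W', ?_, ?_, ?_, ?_, ?_, ?_⟩
  · refine ⟨?_, ?_⟩
    · rw [isMulCommutative_iff]
      rintro ⟨_, ⟨a, ha, rfl⟩⟩ ⟨_, ⟨b, hb, rfl⟩⟩
      apply Subtype.ext
      have := isEA_comm h3 ha hb
      show (a : G) * (b : G) = (b : G) * (a : G)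
      exact congrArg Subtype.val this
    · rintro _ ⟨a, ha, rfl⟩
      have := h3.2 a ha
      exact congrArg Subtype.val this
  · rw [Subgroup.card_map_of_injective Q.subtype_injective]
    exact h3'
  · rw [Subgroup.card_map_of_injective Q.subtype_injective]
    exact h2
  · rintro _ ⟨z, hz, rfl⟩ g hg
    have := Subgroup.mem_center_iff.mp (hZ'cen hz) ⟨g, hg⟩
    have h := congrArg Subtype.val this
    exact h.symm
  · -- some element of `B` does not centralize `W`
    by_contra hcon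
    push Not at hcon
    apply h1
    intro e he
    rw [Subgroup.mem_subgroupOf] at he
    rw [Subgroup.mem_centralizer_iff]
    intro w hw
    apply Subtype.ext
    have := hcon e he w ⟨w, hw, rfl⟩
    exact this.symm
  · rintro _ ⟨w, hw, rfl⟩ g hg
    refine ⟨⁅w, ⟨g, hg⟩⁆, ?_, ?_⟩
    · have hcen : ⁅w, (⟨g, hg⟩ : Q)⁆ ∈ Subgroup.center Q := by
        have := Subgroup.mem_upperCentralSeries_succ_iff.mp (hW'Z2 hw) ⟨g, hg⟩
        rwa [Subgroup.upperCentralSeries_one] at this
      rw [hZ']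
      apply Subgroup.subset_closure
      refine ⟨hcen, ?_⟩
      have hcomm : Commute (w * (⟨g, hg⟩ : Q) * w⁻¹ * (⟨g, hg⟩ : Q)⁻¹) w := by
        rw [commutatorElement_def] at hcen
        exact (Subgroup.mem_center_iff.mp hcen w).symm
      have hpow := comm_pow_of_commute w (⟨g, hg⟩ : Q) hcomm q
      rw [commutatorElement_def, ← hpow, h3.2 w hw]
      simp
    · rw [commutatorElement_def]
      simp
  · intro x hx w hw
    have hnorm := Cfsg.Agent.Lib.Helper47.normalizer_le_normalizer_map_subtype_of_characteristic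
      Q W' hx
    exact (Subgroup.mem_normalizer_iff.mp hnorm w).mp hw
  · have heq : (Subgroup.centralizer ((W'.map Q.subtype : Subgroup G) : Set G)).subgroupOf Q
        = Subgroup.centralizer (W' : Set Q) := by
      ext x
      rw [Subgroup.mem_subgroupOf, Subgroup.mem_centralizer_iff, Subgroup.mem_centralizer_iff]
      constructor
      · intro h w hw
        apply Subtype.ext
        exact h w ⟨w, hw, rfl⟩
      · rintro h _ ⟨w, hw, rfl⟩
        exact congrArg Subtype.val (h w hw)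
    unfold Subgroup.relIndex
    rw [heq]
    exact h5

/-- a proper subgroup of a group of order `q ^ 2` has order at most `q` -/
theorem card_le_of_lt_of_card_sq {G : Type*} [Group G] [Finite G] {q : ℕ} (hq : q.Prime)
    {H W : Subgroup G} (hlt : H < W) (hW2 : Nat.card W = q ^ 2) : Nat.card H ≤ q := by
  have hdvd : Nat.card H ∣ q ^ 2 := hW2 ▸ Subgroup.card_dvd_of_le hlt.le
  obtain ⟨i, hi, hci⟩ := (Nat.dvd_prime_pow hq).mp hdvd
  have hi1 : i ≤ 1 := by
    by_contra hcon
    have hi2 : i = 2 := by omega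
    rw [hi2] at hci
    have := Subgroup.eq_of_le_of_card_ge hlt.le (by rw [hW2, hci])
    exact hlt.ne this
  rw [hci]
  calc q ^ i ≤ q ^ 1 := Nat.pow_le_pow_right hq.pos hi1
    _ = q := pow_one q

/-- `|A| = |A ∩ C| * |A : A ∩ C|` -/
theorem card_eq_card_inf_mul_relIndex {G : Type*} [Group G] (A C : Subgroup G) :
    Nat.card A = Nat.card ↥(A ⊓ C) * C.relIndex A := by
  have h1 := Subgroup.card_mul_index (C.subgroupOf A)
  have h2 : Nat.card ↥(C.subgroupOf A) = Nat.card ↥(A ⊓ C) := by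
    rw [← Subgroup.inf_subgroupOf_right C A, inf_comm]
    exact Nat.card_congr (Subgroup.subgroupOfEquivOfLe (inf_le_left : A ⊓ C ≤ A)).toEquiv
  rw [h2] at h1
  exact h1.symm

/-- **BG Lemma 10.3, `p`-group part.** -/
theorem exists_rank2_centralized {G : Type*} [Group G] [Finite G] {q : ℕ} [Fact q.Prime]
    (hq2 : q ≠ 2) (Q X B : Subgroup G) (hQ : IsPGroup q Q) (hQr : ¬ Cfsg.PRankLE q 2 Q)
    (hXQ : X ≤ Subgroup.normalizer (Q : Set G)) (hXcop : (Nat.card X).Coprime q)
    (hBQ : B ≤ Q) (hBX : B ≤ Subgroup.centralizer (X : Set G))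
    (hB : Cfsg.IsElementaryAbelian q B) (hB2 : Nat.card B = q ^ 2) :
    ∃ W : Subgroup G, W ≤ Q ∧ W ≤ Subgroup.centralizer (X : Set G) ∧
      Cfsg.IsElementaryAbelian q W ∧ Nat.card W = q ^ 2 ∧
      ¬ Cfsg.PRankLE q 2 ↥(Subgroup.centralizer (W : Set G)) := by
  classical
  have hq : q.Prime := Fact.out
  by_cases hcase : Cfsg.PRankLE q 2 ↥(Subgroup.centralizer (B : Set G))
  swap
  · exact ⟨B, hBQ, hBX, hB, hB2, hcase⟩
  -- `B` is a maximal elementary abelian subgroup
  have hBmax : ∀ B' : Subgroup G, B' ≤ Q → Cfsg.IsElementaryAbelian q B' → B ≤ B' → B' = B := by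
    intro B' _ hB' hle
    have h1 : B' ≤ Subgroup.centralizer (B : Set G) := by
      intro x hx
      rw [Subgroup.mem_centralizer_iff]
      intro b hb
      exact isEA_comm hB' (hle hb) hx
    have h2 : Nat.card B' ≤ q ^ 2 :=
      (Cfsg.Agent.Lib.Helper24.pRankLE_subgroup_iff q 2 _).mp hcase B' h1
        (fun a ha b hb => isEA_comm hB' ha hb) hB'.2
    exact (Subgroup.eq_of_le_of_card_ge hle (by rw [hB2]; exact h2)).symm
  obtain ⟨W, Z, hWQ, hW, hW2, hZW, hZ, hZcen, ⟨b, hb, w0, hw0, hbw0⟩, hcomm, hnorm, hidx⟩ :=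
    exists_W_of_maximal hq2 Q B hQ hQr hBQ hB hB2 hBmax
  -- `Z ≤ B`
  have hZB : Z ≤ B := by
    have hZea : Cfsg.IsElementaryAbelian q Z := isEA_of_le hW hZW
    have hsup : Cfsg.IsElementaryAbelian q (B ⊔ Z) :=
      isEA_sup hB hZea (fun a ha z hz => (hZcen z hz a (hBQ ha)).symm)
    have := hBmax (B ⊔ Z) (sup_le hBQ (hZW.trans hWQ)) hsup le_sup_left
    rw [← this]
    exact le_sup_right
  -- the centralizer of `b` in `W` is `Z`
  have hCb : ∀ u ∈ W, u * b = b * u → u ∈ Z := by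
    intro u hu hub
    have hZCb : Z ≤ W ⊓ Subgroup.centralizer ({b} : Set G) := by
      refine le_inf hZW (fun z hz => ?_)
      rw [Subgroup.mem_centralizer_iff]
      intro y hy
      rw [Set.mem_singleton_iff] at hy
      subst hy
      exact (hZcen z hz y (hBQ hb)).symm
    have hCblt : W ⊓ Subgroup.centralizer ({b} : Set G) < W := by
      refine lt_of_le_of_ne inf_le_left ?_
      intro heq
      have h1 : w0 ∈ W ⊓ Subgroup.centralizer ({b} : Set G) := by
        rw [heq]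
        exact hw0
      have h2 := Subgroup.mem_centralizer_iff.mp h1.2 b rfl
      exact hbw0 h2
    have hcard : Nat.card ↥(W ⊓ Subgroup.centralizer ({b} : Set G)) ≤ q :=
      card_le_of_lt_of_card_sq hq hCblt hW2
    have heq : Z = W ⊓ Subgroup.centralizer ({b} : Set G) :=
      Subgroup.eq_of_le_of_card_ge hZCb (by rw [hZ]; exact hcard)
    rw [heq]
    refine ⟨hu, ?_⟩
    show u ∈ Subgroup.centralizer ({b} : Set G)
    rw [Subgroup.mem_centralizer_iff]
    intro y hy
    rw [Set.mem_singleton_iff] at hy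
    subst hy
    exact hub.symm
  -- `X` centralizes `W`
  have hWX : W ≤ Subgroup.centralizer (X : Set G) := by
    intro w hw
    rw [Subgroup.mem_centralizer_iff]
    intro x hx
    have hxN := hXQ hx
    have hxb : x * b = b * x := Subgroup.mem_centralizer_iff.mp (hBX hb) x hx
    have hxZ : ∀ z ∈ Z, x * z = z * x :=
      fun z hz => Subgroup.mem_centralizer_iff.mp (hBX (hZB hz)) x hx
    have hw'W : x * w * x⁻¹ ∈ W := hnorm x hxN w hw
    have huW : x * w * x⁻¹ * w⁻¹ ∈ W := W.mul_mem hw'W (W.inv_mem hw)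
    -- `u = x w x⁻¹ w⁻¹` commutes with `b`
    have hub : (x * w * x⁻¹ * w⁻¹) * b = b * (x * w * x⁻¹ * w⁻¹) := by
      have hz := hcomm w hw b (hBQ hb)
      have hxz := hxZ _ hz
      have hxb' : x⁻¹ * b = b * x⁻¹ := by
        have : x⁻¹ * (x * b) * x⁻¹ = x⁻¹ * (b * x) * x⁻¹ := by rw [hxb]
        simpa [mul_assoc] using this.symm
      have hxb'' : x⁻¹ * b⁻¹ = b⁻¹ * x⁻¹ := by
        have : b⁻¹ * (x⁻¹ * b) * b⁻¹ = b⁻¹ * (b * x⁻¹) * b⁻¹ := by rw [hxb']
        simpa [mul_assoc] using this.symm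
      -- `[x w x⁻¹, b] = [w, b]`
      have hc1 : (x * w * x⁻¹) * b * (x * w * x⁻¹)⁻¹ * b⁻¹ = w * b * w⁻¹ * b⁻¹ := by
        have e : (x * w * x⁻¹) * b * (x * w * x⁻¹)⁻¹ * b⁻¹
            = x * (w * b * w⁻¹ * b⁻¹) * x⁻¹ := by
          have e1 : (x * w * x⁻¹) * b * (x * w * x⁻¹)⁻¹ * b⁻¹
              = x * w * (x⁻¹ * b) * (x * w⁻¹) * (x⁻¹ * b⁻¹) := by group
          rw [e1, hxb', hxb'']
          group
        rw [e, hxz]
        group
      -- hence `w⁻¹ (x w x⁻¹)` commutes with `b`, and `W` is abelian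
      have hwc : w⁻¹ * (x * w * x⁻¹) = x * w * x⁻¹ * w⁻¹ :=
        isEA_comm hW (W.inv_mem hw) hw'W
      have h3 : (w⁻¹ * (x * w * x⁻¹)) * b = b * (w⁻¹ * (x * w * x⁻¹)) := by
        have h4 : (x * w * x⁻¹) * b * (x * w * x⁻¹)⁻¹ = w * b * w⁻¹ := by
          have := congrArg (fun t => t * b) hc1
          simpa [mul_assoc] using this
        have h5 : (x * w * x⁻¹) * b = w * b * w⁻¹ * (x * w * x⁻¹) := by
          have := congrArg (fun t => t * (x * w * x⁻¹)) h4
          simpa [mul_assoc] using this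
        calc (w⁻¹ * (x * w * x⁻¹)) * b = w⁻¹ * ((x * w * x⁻¹) * b) := by group
          _ = w⁻¹ * (w * b * w⁻¹ * (x * w * x⁻¹)) := by rw [h5]
          _ = b * (w⁻¹ * (x * w * x⁻¹)) := by group
      rw [hwc] at h3
      exact h3
    have huZ : x * w * x⁻¹ * w⁻¹ ∈ Z := hCb _ huW hub
    have hxu := hxZ _ huZ
    have hpow : ∀ k : ℕ, x ^ k * w * (x ^ k)⁻¹ = (x * w * x⁻¹ * w⁻¹) ^ k * w := by
      intro k
      induction k with
      | zero => simp
      | succ k ih =>
        have hcomm' : Commute x ((x * w * x⁻¹ * w⁻¹) ^ k) := (show Commute x _ from hxu).pow_right k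
        calc x ^ (k + 1) * w * (x ^ (k + 1))⁻¹
            = x * (x ^ k * w * (x ^ k)⁻¹) * x⁻¹ := by rw [pow_succ']; group
          _ = x * ((x * w * x⁻¹ * w⁻¹) ^ k * w) * x⁻¹ := by rw [ih]
          _ = (x * (x * w * x⁻¹ * w⁻¹) ^ k) * w * x⁻¹ := by group
          _ = ((x * w * x⁻¹ * w⁻¹) ^ k * x) * w * x⁻¹ := by rw [hcomm'.eq]
          _ = (x * w * x⁻¹ * w⁻¹) ^ k * (x * w * x⁻¹ * w⁻¹) * w := by group
          _ = (x * w * x⁻¹ * w⁻¹) ^ (k + 1) * w := by rw [pow_succ]
    have hn := hpow (orderOf x)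
    rw [pow_orderOf_eq_one] at hn
    have hun : (x * w * x⁻¹ * w⁻¹) ^ orderOf x = 1 := by
      have : w = (x * w * x⁻¹ * w⁻¹) ^ orderOf x * w := by simpa using hn
      exact (mul_eq_right (a := (x * w * x⁻¹ * w⁻¹) ^ orderOf x) (b := w)).mp this.symm
    have huq : (x * w * x⁻¹ * w⁻¹) ^ q = 1 := hW.2 _ huW
    have hox : orderOf x ∣ Nat.card X := by
      have := orderOf_dvd_natCard (⟨x, hx⟩ : X)
      rwa [Subgroup.orderOf_mk] at this
    have hcop : (orderOf x).Coprime q := Nat.Coprime.coprime_dvd_left hox hXcop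
    have hu1 : x * w * x⁻¹ * w⁻¹ = 1 := by
      have h1 := orderOf_dvd_of_pow_eq_one hun
      have h2 := orderOf_dvd_of_pow_eq_one huq
      have h3 : orderOf (x * w * x⁻¹ * w⁻¹) ∣ Nat.gcd (orderOf x) q := Nat.dvd_gcd h1 h2
      rw [hcop] at h3
      exact orderOf_eq_one_iff.mp (Nat.dvd_one.mp h3)
    have : x * w * x⁻¹ = w := by
      have := congrArg (fun t => t * w) hu1
      simpa [mul_assoc] using this
    have := congrArg (fun t => t * x) this
    simpa [mul_assoc] using this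
  refine ⟨W, hWQ, hWX, hW, hW2, ?_⟩
  -- the rank of `C(W)`
  intro hle
  obtain ⟨A, hA, hAQ, hAcard⟩ := exists_EA_of_not_pRankLE q hQr
  have hWC : W ≤ Subgroup.centralizer (W : Set G) := by
    intro w hw
    rw [Subgroup.mem_centralizer_iff]
    intro y hy
    exact isEA_comm hW hy hw
  have hD : Cfsg.IsElementaryAbelian q ((A ⊓ Subgroup.centralizer (W : Set G)) ⊔ W) :=
    isEA_sup (isEA_of_le hA inf_le_left) hW
      (fun a ha w hw => (Subgroup.mem_centralizer_iff.mp ha.2 w hw).symm)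
  have hDC : (A ⊓ Subgroup.centralizer (W : Set G)) ⊔ W ≤ Subgroup.centralizer (W : Set G) :=
    sup_le inf_le_right hWC
  have hDcard : Nat.card ↥((A ⊓ Subgroup.centralizer (W : Set G)) ⊔ W) ≤ q ^ 2 := by
    by_contra h
    push Not at h
    exact not_pRankLE_of_le q hD hDC h hle
  have hDW : W = (A ⊓ Subgroup.centralizer (W : Set G)) ⊔ W :=
    Subgroup.eq_of_le_of_card_ge le_sup_right (by rw [hW2]; exact hDcard)
  have hACW : A ⊓ Subgroup.centralizer (W : Set G) ≤ W :=
    le_sup_left.trans (le_of_eq hDW.symm)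
  have hidxA : (Subgroup.centralizer (W : Set G)).relIndex A ≤ q := by
    have := Subgroup.relIndex_le_of_le_right (H := Subgroup.centralizer (W : Set G)) hAQ
      (by rw [hidx]; exact hq.ne_zero)
    rwa [hidx] at this
  have hcardA := card_eq_card_inf_mul_relIndex A (Subgroup.centralizer (W : Set G))
  by_cases hAW : A ⊓ Subgroup.centralizer (W : Set G) = W
  · have hWA : W ≤ A := hAW ▸ inf_le_left
    have hAC : A ≤ Subgroup.centralizer (W : Set G) := by
      intro a ha
      rw [Subgroup.mem_centralizer_iff]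
      intro w hw
      exact isEA_comm hA (hWA hw) ha
    have h1 : A ⊓ Subgroup.centralizer (W : Set G) = A := inf_eq_left.mpr hAC
    rw [h1] at hAW
    rw [hAW, hW2] at hAcard
    exact lt_irrefl _ hAcard
  · have hlt : A ⊓ Subgroup.centralizer (W : Set G) < W := lt_of_le_of_ne hACW hAW
    have hc : Nat.card ↥(A ⊓ Subgroup.centralizer (W : Set G)) ≤ q :=
      card_le_of_lt_of_card_sq hq hlt hW2
    have h2 : Nat.card A ≤ q * q := by
      rw [hcardA]
      exact Nat.mul_le_mul hc hidxA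
    have h3 : q ^ 2 = q * q := sq q
    omega

end Cfsg.Agent.Lib.Helper65.BG
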