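import Mathlib
import Cfsg.Agent.Lib.Helper65.BG.RankTwoCent
import Cfsg.Agent.S0025
import Cfsg.Agent.Lib.Helper61.CoresInt
import Cfsg.Agent.Lib.Helper23.NilpParts
import Cfsg.Prelude.Def_OddOrderLocal

/-!
# BG Lemma 10.3 (S1406), conditional on the Uniqueness Theorem (S1403) and on `M_α` being a Hall
subgroup of `M` (first part of S1405)
-/

set_option autoImplicit false

namespace Cfsg.Agent.Lib.Helper65.BG

open Cfsg.Agent.Lib.Helper23

/-- a `q`-element of `M` lies in every normal subgroup of `M` of index prime to `q` -/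
theorem mem_of_pow_eq_one_of_not_dvd_relIndex {G : Type*} [Group G] [Finite G] {q : ℕ}
    [Fact q.Prime] (M N : Subgroup G) (hnorm : M ≤ Subgroup.normalizer (N : Set G))
    (hidx : ¬ q ∣ N.relIndex M) {a : G} (haM : a ∈ M) (haq : a ^ q = 1) : a ∈ N := by
  have hq : q.Prime := Fact.out
  have hN : (N.subgroupOf M).Normal := Subgroup.normal_subgroupOf_of_le_normalizer hnorm
  have h1 : ((⟨a, haM⟩ : M) : M ⧸ N.subgroupOf M) ^ q = 1 := by
    rw [← QuotientGroup.mk_pow]
    have : (⟨a, haM⟩ : M) ^ q = 1 := Subtype.ext haq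
    rw [this]
    rfl
  have h2 := orderOf_dvd_of_pow_eq_one h1
  have h3 : orderOf ((⟨a, haM⟩ : M) : M ⧸ N.subgroupOf M) ∣ (N.subgroupOf M).index := by
    rw [Subgroup.index_eq_card]
    exact orderOf_dvd_natCard _
  have h4 : orderOf ((⟨a, haM⟩ : M) : M ⧸ N.subgroupOf M) = 1 := by
    rcases (Nat.dvd_prime hq).mp h2 with h | h
    · exact h
    · exfalso
      rw [h] at h3
      exact hidx h3
  have h5 := orderOf_eq_one_iff.mp h4
  have h6 := (QuotientGroup.eq_one_iff _).mp h5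
  exact Subgroup.mem_subgroupOf.mp h6

/-- a Sylow `q`-subgroup of a normal subgroup of `M` of index prime to `q` has the `q`-rank of
`M` -/
theorem not_pRankLE_sylow_of_hall {G : Type*} [Group G] [Finite G] {q : ℕ} [Fact q.Prime]
    (M N : Subgroup G) (hnorm : M ≤ Subgroup.normalizer (N : Set G))
    (hidx : ¬ q ∣ N.relIndex M) (P : Sylow q N) (hr : ¬ Cfsg.PRankLE q 2 M) :
    ¬ Cfsg.PRankLE q 2 ↥((P : Subgroup N).map N.subtype) := by
  obtain ⟨A, hA, hAM, hAcard⟩ := exists_EA_of_not_pRankLE q hr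
  have hAN : A ≤ N := fun a ha =>
    mem_of_pow_eq_one_of_not_dvd_relIndex M N hnorm hidx (hAM ha) (hA.2 a ha)
  have hQp : IsPGroup q ↥((P : Subgroup N).map N.subtype) := P.isPGroup'.map _
  obtain ⟨h, hh, P', hP', hP'N, hAP', hQP'⟩ :=
    exists_conj_le_pGroup N A ((P : Subgroup N).map N.subtype) (isEA_isPGroup hA) hQp hAN
      (Subgroup.map_subtype_le _)
  -- `P' = Q`
  have hP'eq : P' = (P : Subgroup N).map N.subtype := by
    have h1 : IsPGroup q ↥(P'.subgroupOf N) := hP'.comap_of_injective _ N.subtype_injective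
    have h2 : (P : Subgroup N) ≤ P'.subgroupOf N := by
      intro x hx
      rw [Subgroup.mem_subgroupOf]
      exact hQP' ⟨x, hx, rfl⟩
    have h3 := P.is_maximal' h1 h2
    rw [← h3]
    ext x
    constructor
    · intro hx
      exact ⟨⟨x, hP'N hx⟩, Subgroup.mem_subgroupOf.mpr hx, rfl⟩
    · rintro ⟨y, hy, rfl⟩
      exact Subgroup.mem_subgroupOf.mp hy
  rw [hP'eq] at hAP'
  have hA' : Cfsg.IsElementaryAbelian q (A.map (MulAut.conj h).toMonoidHom) :=
    isEA_map q (MulAut.conj h) hA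
  have hcard : q ^ 2 < Nat.card ↥(A.map (MulAut.conj h).toMonoidHom) := by
    rw [Subgroup.card_map_of_injective (MulAut.conj h).injective]
    exact hAcard
  exact not_pRankLE_of_le q hA' hAP' hcard

/-- **BG Lemma 10.3** (statement S1406), from the Uniqueness Theorem (S1403) and the Hall
property of `M_α` (S1405). -/
theorem s1406_core {G : Type*} [Group G] [Finite G] (hG : Cfsg.IsMinSimpleOddOrder G)
    (h1403 : ∀ K : Subgroup G, K ≠ ⊤ → ¬ Cfsg.RankLE 1 K →
      (¬ Cfsg.RankLE 2 K ∨ ¬ Cfsg.RankLE 2 (Subgroup.centralizer (K : Set G))) →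
      Cfsg.InUniqueMaximal K)
    (M : Subgroup G) (hM : IsCoatom M)
    (hHall : Cfsg.IsPiHallOf (Cfsg.alpha M) (Cfsg.alphaCore M) M)
    (X : Subgroup G) (hXM : X ≤ M)
    (hXα : ∀ p : ℕ, p.Prime → p ∣ Nat.card X → p ∉ Cfsg.alpha M)
    (hr : ¬ Cfsg.RankLE 1 ↥(Cfsg.alphaCore M ⊓ Subgroup.centralizer (X : Set G))) :
    Cfsg.InUniqueMaximal (M ⊓ Subgroup.centralizer (X : Set G)) := by
  classical
  obtain ⟨hMα_le, hMα_pi, hMα_idx⟩ := hHall
  -- a prime `q` and an elementary abelian subgroup of order `> q` of `C_{M_α}(X)`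
  unfold Cfsg.RankLE at hr
  push Not at hr
  obtain ⟨q, hq, hrq⟩ := hr
  have : Fact q.Prime := ⟨hq⟩
  rw [Cfsg.Agent.Lib.Helper24.pRankLE_subgroup_iff] at hrq
  push Not at hrq
  obtain ⟨A1, hA1le, hA1c, hA1e, hA1card⟩ := hrq
  have hA1 : Cfsg.IsElementaryAbelian q A1 := by
    refine ⟨?_, hA1e⟩
    rw [isMulCommutative_iff]
    rintro ⟨a, ha⟩ ⟨b, hb⟩
    exact Subtype.ext (hA1c a ha b hb)
  -- a subgroup `B` of order `q ^ 2`
  obtain ⟨B, hBA1, hB2⟩ : ∃ B : Subgroup G, B ≤ A1 ∧ Nat.card B = q ^ 2 := by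
    obtain ⟨n, hn⟩ := (isEA_isPGroup hA1).exists_card_eq
    have hn2 : 2 ≤ n := by
      by_contra hcon
      have hn1 : n ≤ 1 := by omega
      have : q ^ n ≤ q ^ 1 := Nat.pow_le_pow_right hq.pos hn1
      omega
    have hdvd : q ^ 2 ∣ Nat.card A1 := by
      rw [hn]
      exact pow_dvd_pow q hn2
    obtain ⟨K, hK⟩ := Sylow.exists_subgroup_card_pow_prime q hdvd
    refine ⟨K.map A1.subtype, Subgroup.map_subtype_le K, ?_⟩
    rw [Subgroup.card_map_of_injective A1.subtype_injective]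
    exact hK
  have hB : Cfsg.IsElementaryAbelian q B := isEA_of_le hA1 hBA1
  have hBMα : B ≤ Cfsg.alphaCore M := hBA1.trans (hA1le.trans inf_le_left)
  have hBX : B ≤ Subgroup.centralizer (X : Set G) := hBA1.trans (hA1le.trans inf_le_right)
  -- `q ∈ α(M)`, `q` odd
  have hqdvd : q ∣ Nat.card (Cfsg.alphaCore M) := by
    have h1 : Nat.card B ∣ Nat.card (Cfsg.alphaCore M) := Subgroup.card_dvd_of_le hBMα
    rw [hB2] at h1
    exact (dvd_pow_self q (by norm_num)).trans h1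
  have hqα : q ∈ Cfsg.alpha M := hMα_pi q hq hqdvd
  have hqr : ¬ Cfsg.PRankLE q 2 M := hqα.2
  have hq2 : q ≠ 2 := by
    rintro rfl
    have h1 : 2 ∣ Nat.card G := hqdvd.trans (Subgroup.card_subgroup_dvd_card _)
    have h2 := hG.1
    rw [Nat.odd_iff] at h2
    omega
  -- coprime action of `X` on `M_α`
  have hMnorm : M ≤ Subgroup.normalizer (Cfsg.alphaCore M : Set G) :=
    Cfsg.Agent.Lib.Helper61.le_normalizer_map_of_normal M _ (Cfsg.piCore_normal _ _)
  have hcop : (Nat.card X).Coprime (Nat.card (Cfsg.alphaCore M)) :=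
    Nat.coprime_of_dvd (fun k hk hkX hkM => hXα k hk hkX (hMα_pi k hk hkM))
  have hMsolv : Group.IsSolvable ↥M := hG.2.2.2 M hM.1
  have hXsolv : Group.IsSolvable ↥X := isSolvable_of_le hMsolv hXM
  have hXB : X ≤ Subgroup.normalizer (B : Set G) := by
    intro x hx
    rw [Subgroup.mem_normalizer_iff]
    intro b
    have key : ∀ b ∈ B, x * b * x⁻¹ = b := by
      intro b hb
      have := Subgroup.mem_centralizer_iff.mp (hBX hb) x hx
      rw [this]
      group
    constructor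
    · intro hb
      rw [key b hb]
      exact hb
    · intro hb
      have h1 := key _ hb
      have h2 : x * b * x⁻¹ = b := mul_left_cancel (mul_right_cancel h1)
      rw [← h2]
      exact hb
  obtain ⟨P, hBP, hXP⟩ := Cfsg.Agent.S0025.result X (Cfsg.alphaCore M)
    ((hXM.trans hMnorm)) hcop (Or.inl hXsolv) q B hBMα (isEA_isPGroup hB) hXB
  have hQp : IsPGroup q ↥((P : Subgroup (Cfsg.alphaCore M)).map (Cfsg.alphaCore M).subtype) :=
    P.isPGroup'.map _
  have hQr := not_pRankLE_sylow_of_hall M (Cfsg.alphaCore M) hMnorm (hMα_idx q hq hqα) P hqr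
  have hXcop : (Nat.card X).Coprime q :=
    Nat.Coprime.coprime_dvd_right hqdvd hcop
  obtain ⟨W, hWQ, hWX, hW, hW2, hWr⟩ := exists_rank2_centralized hq2 _ X B hQp hQr hXP hXcop hBP
    hBX hB hB2
  -- `W` is a uniqueness subgroup
  have hWM : W ≤ M := hWQ.trans ((Subgroup.map_subtype_le _).trans hMα_le)
  have hWtop : W ≠ ⊤ := by
    rintro rfl
    exact hM.1 (top_le_iff.mp hWM)
  have hW1 : ¬ Cfsg.RankLE 1 W := by
    intro h
    have h1 := (Cfsg.Agent.Lib.Helper24.pRankLE_subgroup_iff q 1 W).mp (h q hq) W le_rfl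
      (fun a ha b hb => isEA_comm hW ha hb) hW.2
    rw [hW2] at h1
    have : q ^ 1 < q ^ 2 := Nat.pow_lt_pow_right hq.one_lt (by norm_num)
    omega
  have hWU := h1403 W hWtop hW1 (Or.inr (fun h => hWr (h q hq)))
  obtain ⟨L, ⟨hL, hWL⟩, huniq⟩ := hWU
  have hML : M = L := huniq M ⟨hM, hWM⟩
  refine ⟨M, ⟨hM, inf_le_left⟩, ?_⟩
  rintro L' ⟨hL', hle⟩
  rw [hML]
  exact huniq L' ⟨hL', (le_inf hWM hWX).trans hle⟩

end Cfsg.Agent.Lib.Helper65.BG
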