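import Mathlib
import Cfsg.Agent.Lib.Helper65.BG.S1406Core
import Cfsg.Agent.Lib.Helper23.Transitivity
import Cfsg.Agent.S0016

/-!
# BG Lemma 10.4 (S1407), conditional on the Uniqueness Theorem (S1403) and on BG 10.3 (S1406)
-/

set_option autoImplicit false

namespace Cfsg.Agent.Lib.Helper65.BG

open Cfsg.Agent.Lib.Helper23

/-- a normal-in-itself maximal subgroup of a minimal simple group is self-normalizing -/
theorem normalizer_coatom_eq {G : Type*} [Group G] (hG : Cfsg.IsMinSimpleOddOrder G)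
    (M : Subgroup G) (hM : IsCoatom M) (hM1 : M ≠ ⊥) : Subgroup.normalizer (M : Set G) = M := by
  by_contra hne
  exact normalizer_ne_top_of_simple hG hM1 hM.1
    (hM.2 _ (lt_of_le_of_ne Subgroup.le_normalizer (Ne.symm hne)))

/-- every proper subgroup of a finite group lies in a maximal subgroup -/
theorem exists_coatom_ge {G : Type*} [Group G] [Finite G] {H : Subgroup G} (hH : H ≠ ⊤) :
    ∃ L : Subgroup G, IsCoatom L ∧ H ≤ L := by
  rcases eq_top_or_exists_le_coatom H with h | h
  · exact absurd h hH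
  · exact h

/-- a finite group of odd order that is not a `Z`-group has rank at least 2 -/
theorem not_rankLE_one_of_not_isZGroup {H : Type*} [Group H] [Finite H] (hodd : Odd (Nat.card H))
    (hZ : ¬ IsZGroup H) : ¬ Cfsg.RankLE 1 H := by
  classical
  intro hrank
  apply hZ
  refine ⟨fun r hr S => ?_⟩
  have : Fact r.Prime := ⟨hr⟩
  by_contra hcyc
  have hr2 : r ≠ 2 := by
    rintro rfl
    have h1 : Nat.card S ≠ 1 := by
      intro h1
      have : Subsingleton S := (Nat.card_eq_one_iff_unique.mp h1).1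
      exact hcyc inferInstance
    have h2 : 2 ∣ Nat.card S := by
      obtain ⟨n, hn⟩ := S.isPGroup'.exists_card_eq
      rw [hn] at h1 ⊢
      have hn0 : n ≠ 0 := by
        rintro rfl
        exact h1 rfl
      exact dvd_pow_self 2 hn0
    have h3 : 2 ∣ Nat.card H := h2.trans (Subgroup.card_subgroup_dvd_card _)
    rw [Nat.odd_iff] at hodd
    omega
  -- two distinct subgroups of order `r` in `S`
  have h16 := Cfsg.Agent.S0016.result (G := S) r S.isPGroup'
  have hnu : ¬ ∀ H₁ K₁ : Subgroup S, Nat.card H₁ = r → Nat.card K₁ = r → H₁ = K₁ := by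
    intro hu
    rcases h16 hu with h | h
    · exact hcyc h
    · exact hr2 h.1
  push Not at hnu
  obtain ⟨H₁, K₁, hH₁, hK₁, hne⟩ := hnu
  -- a central subgroup of order `r`
  have hSnt : Nontrivial S := by
    by_contra hnt
    rw [not_nontrivial_iff_subsingleton] at hnt
    exact hcyc inferInstance
  have hcnt : Nontrivial (Subgroup.center S) := S.isPGroup'.center_nontrivial
  have hcdvd : r ∣ Nat.card (Subgroup.center S) := by
    have hcp : IsPGroup r (Subgroup.center S) := S.isPGroup'.to_subgroup _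
    obtain ⟨n, hn⟩ := hcp.exists_card_eq
    rw [hn]
    have hn0 : n ≠ 0 := by
      rintro rfl
      rw [pow_zero] at hn
      have : Subsingleton (Subgroup.center S) := (Nat.card_eq_one_iff_unique.mp hn).1
      exact not_subsingleton _ this
    exact dvd_pow_self r hn0
  obtain ⟨c, hc⟩ := exists_prime_orderOf_dvd_card' r hcdvd
  have hcS : orderOf (c : S) = r := by rw [Subgroup.orderOf_coe]; exact hc
  have hZ0card : Nat.card (Subgroup.zpowers (c : S)) = r := by
    rw [Nat.card_zpowers, hcS]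
  -- a subgroup `K` of order `r` different from `Z₀ = ⟨c⟩`
  obtain ⟨K, hK, hKne⟩ : ∃ K : Subgroup S, Nat.card K = r ∧ K ≠ Subgroup.zpowers (c : S) := by
    by_cases h : K₁ = Subgroup.zpowers (c : S)
    · refine ⟨H₁, hH₁, ?_⟩
      rw [← h]
      exact hne
    · exact ⟨K₁, hK₁, h⟩
  -- `Z₀ K` is elementary abelian of order `> r`
  have hKcyc : IsCyclic K := isCyclic_of_prime_card hK
  have hKea : Cfsg.IsElementaryAbelian r K := by
    refine ⟨?_, ?_⟩
    · rw [isMulCommutative_iff]
      intro a b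
      obtain ⟨g, hg⟩ := hKcyc.exists_generator
      obtain ⟨i, rfl⟩ := Subgroup.mem_zpowers_iff.mp (hg a)
      obtain ⟨j, rfl⟩ := Subgroup.mem_zpowers_iff.mp (hg b)
      rw [← zpow_add, ← zpow_add, add_comm]
    · intro a ha
      have h1 : (⟨a, ha⟩ : K) ^ r = 1 := by
        have := pow_card_eq_one' (G := K) (x := ⟨a, ha⟩)
        rwa [hK] at this
      exact congrArg Subtype.val h1
  have hZea : Cfsg.IsElementaryAbelian r (Subgroup.zpowers (c : S)) := by
    apply isEA_zpowers
    have h := pow_orderOf_eq_one (c : S)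
    rw [hcS] at h
    exact h
  have hsup : Cfsg.IsElementaryAbelian r (Subgroup.zpowers (c : S) ⊔ K) := by
    apply isEA_sup hZea hKea
    intro a ha b _
    obtain ⟨i, rfl⟩ := Subgroup.mem_zpowers_iff.mp ha
    have hcb : (c : S) * b = b * (c : S) := (Subgroup.mem_center_iff.mp c.2 b).symm
    exact ((show Commute (c : S) b from hcb).zpow_left i).eq
  have hlt : Subgroup.zpowers (c : S) < Subgroup.zpowers (c : S) ⊔ K := by
    refine lt_of_le_of_ne le_sup_left ?_
    intro heq
    have hKle : K ≤ Subgroup.zpowers (c : S) := by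
      rw [heq]
      exact le_sup_right
    exact hKne (Subgroup.eq_of_le_of_card_ge hKle (by rw [hZ0card, hK]))
  have hcardlt : r < Nat.card ↥(Subgroup.zpowers (c : S) ⊔ K) := by
    by_contra h
    push Not at h
    exact hlt.ne (Subgroup.eq_of_le_of_card_ge hlt.le (by rw [hZ0card]; exact h))
  -- contradiction with rank one
  have hD : Cfsg.IsElementaryAbelian r
      ((Subgroup.zpowers (c : S) ⊔ K).map (S : Subgroup H).subtype) := by
    obtain ⟨hc1, hc2⟩ := hsup
    refine ⟨?_, ?_⟩
    · rw [isMulCommutative_iff]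
      rintro ⟨_, ⟨a, ha, rfl⟩⟩ ⟨_, ⟨b, hb, rfl⟩⟩
      apply Subtype.ext
      have := isEA_comm ⟨hc1, hc2⟩ ha hb
      show (a : H) * (b : H) = (b : H) * (a : H)
      exact congrArg Subtype.val this
    · rintro _ ⟨a, ha, rfl⟩
      have := hc2 a ha
      exact congrArg Subtype.val this
  have h1 := hrank r hr _ hD.1 hD.2
  rw [Subgroup.card_map_of_injective (Subgroup.subtype_injective _), pow_one] at h1
  omega

/-- `α(M) ⊆ σ(M)`, from the Uniqueness Theorem -/
theorem alpha_subset_sigma {G : Type*} [Group G] [Finite G] (hG : Cfsg.IsMinSimpleOddOrder G)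
    (h1403 : ∀ K : Subgroup G, K ≠ ⊤ → ¬ Cfsg.RankLE 1 K →
      (¬ Cfsg.RankLE 2 K ∨ ¬ Cfsg.RankLE 2 (Subgroup.centralizer (K : Set G))) →
      Cfsg.InUniqueMaximal K)
    (M : Subgroup G) (hM : IsCoatom M) {p : ℕ} (hp : p ∈ Cfsg.alpha M) : p ∈ Cfsg.sigma M := by
  classical
  obtain ⟨hpp, hpr⟩ := hp
  have : Fact p.Prime := ⟨hpp⟩
  -- `p` divides `|M|`
  have hpM : p ∣ Nat.card M := by
    obtain ⟨A', hA', hA'M, hA'card⟩ := exists_EA_of_not_pRankLE (P := G) p (C := M) hpr
    exact (by
      obtain ⟨n', hn'⟩ := (isEA_isPGroup hA').exists_card_eq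
      have hn0' : n' ≠ 0 := by
        rintro rfl
        rw [pow_zero] at hn'
        rw [hn'] at hA'card
        have := hpp.one_lt
        nlinarith
      have h2 : p ∣ Nat.card A' := by
        rw [hn']
        exact dvd_pow_self p hn0'
      exact h2.trans (Subgroup.card_dvd_of_le hA'M))
  obtain ⟨P⟩ : Nonempty (Sylow p M) := inferInstance
  refine ⟨hpp, hpM, P, ?_⟩
  have hidx : ¬ p ∣ M.relIndex M := by
    rw [Subgroup.relIndex_self]
    exact hpp.one_lt.ne' ∘ Nat.dvd_one.mp
  have hPr := not_pRankLE_sylow_of_hall M M Subgroup.le_normalizer hidx P hpr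
  have hPM : (P : Subgroup M).map M.subtype ≤ M := Subgroup.map_subtype_le _
  have hPtop : (P : Subgroup M).map M.subtype ≠ ⊤ := by
    intro h
    rw [h] at hPM
    exact hM.1 (top_le_iff.mp hPM)
  have hPbot : (P : Subgroup M).map M.subtype ≠ ⊥ := by
    intro h
    have h1 := P.ne_bot_of_dvd_card hpM
    apply h1
    rw [Subgroup.map_eq_bot_iff_of_injective _ M.subtype_injective] at h
    exact h
  have hP1 : ¬ Cfsg.RankLE 1 ↥((P : Subgroup M).map M.subtype) := by
    intro h
    apply hPr
    intro A hAc hAe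
    have h1 := h p hpp A hAc hAe
    have h2 : p ^ 1 ≤ p ^ 2 := Nat.pow_le_pow_right hpp.pos (by norm_num)
    omega
  obtain ⟨L, ⟨-, -⟩, huniq⟩ := h1403 _ hPtop hP1 (Or.inl (fun h => hPr (h p hpp)))
  have hNtop := normalizer_ne_top_of_simple hG hPbot hPtop
  obtain ⟨L', hL', hNL'⟩ := exists_coatom_ge hNtop
  have h1 : L' = L := huniq L' ⟨hL', Subgroup.le_normalizer.trans hNL'⟩
  have h2 : M = L := huniq M ⟨hM, hPM⟩
  exact hNL'.trans (le_of_eq (h1.trans h2.symm))

/-- membership in the image of `Z(P)` for a subgroup `P` of `M` -/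
theorem mem_center_image_iff {G : Type*} [Group G] (M : Subgroup G) (P : Subgroup M) (z : G) :
    z ∈ ((Subgroup.center ↥P).map P.subtype).map M.subtype ↔
      z ∈ P.map M.subtype ∧ ∀ u ∈ P.map M.subtype, u * z = z * u := by
  constructor
  · rintro ⟨_, ⟨c, hc, rfl⟩, rfl⟩
    refine ⟨⟨(c : M), c.2, rfl⟩, ?_⟩
    rintro _ ⟨u, hu, rfl⟩
    have h1 := Subgroup.mem_center_iff.mp hc ⟨u, hu⟩
    have h2 := congrArg (fun t : P => ((t : M) : G)) h1
    exact h2
  · rintro ⟨⟨z', hz', rfl⟩, hcomm⟩
    refine ⟨z', ⟨⟨z', hz'⟩, ?_, rfl⟩, rfl⟩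
    show (⟨z', hz'⟩ : ↥P) ∈ Subgroup.center ↥P
    rw [Subgroup.mem_center_iff]
    intro u
    apply Subtype.ext
    apply Subtype.ext
    exact hcomm _ ⟨(u : M), u.2, rfl⟩

/-- **BG Lemma 10.4** (statement S1407), from the Uniqueness Theorem (S1403) and BG 10.3
(S1406). -/
theorem s1407_core {G : Type*} [Group G] [Finite G] (hG : Cfsg.IsMinSimpleOddOrder G)
    (h1403 : ∀ K : Subgroup G, K ≠ ⊤ → ¬ Cfsg.RankLE 1 K →
      (¬ Cfsg.RankLE 2 K ∨ ¬ Cfsg.RankLE 2 (Subgroup.centralizer (K : Set G))) →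
      Cfsg.InUniqueMaximal K)
    (h1406 : ∀ (M : Subgroup G), IsCoatom M → ∀ (X : Subgroup G), X ≤ M →
      (∀ p : ℕ, p.Prime → p ∣ Nat.card X → p ∉ Cfsg.alpha M) →
      ¬ Cfsg.RankLE 1 ↥(Cfsg.alphaCore M ⊓ Subgroup.centralizer (X : Set G)) →
      Cfsg.InUniqueMaximal (M ⊓ Subgroup.centralizer (X : Set G)))
    (M : Subgroup G) (hM : IsCoatom M) (p : ℕ) [Fact p.Prime] (hpM : p ∣ Nat.card M)
    (hp : p ∉ Cfsg.sigma M) (P : Sylow p M) :
    ∃ x : G, x ∈ ((Subgroup.center ↥(P : Subgroup M)).map (P : Subgroup M).subtype).map M.subtype ∧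
      orderOf x = p ∧
      IsZGroup ↥(Cfsg.alphaCore M ⊓ Subgroup.centralizer ({x} : Set G)) ∧
      ¬ (Subgroup.centralizer ({x} : Set G) ≤ M ∧ ∀ L : Subgroup G, IsCoatom L →
        Subgroup.centralizer ({x} : Set G) ≤ L → L = M) := by
  classical
  have hpp : p.Prime := Fact.out
  by_contra hcon
  push Not at hcon
  have hM1 : M ≠ ⊥ := by
    rintro rfl
    rw [Subgroup.card_bot] at hpM
    exact hpp.one_lt.ne' (Nat.dvd_one.mp hpM)
  have hpα : p ∉ Cfsg.alpha M := fun h => hp (alpha_subset_sigma hG h1403 M hM h)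
  have hPM : (P : Subgroup M).map M.subtype ≤ M := Subgroup.map_subtype_le _
  -- every element of order `p` of `Z(P)` has its centralizer in `M` only
  have hU : ∀ x ∈ ((Subgroup.center ↥(P : Subgroup M)).map (P : Subgroup M).subtype).map
      M.subtype, orderOf x = p → (Subgroup.centralizer ({x} : Set G) ≤ M ∧
        ∀ L : Subgroup G, IsCoatom L → Subgroup.centralizer ({x} : Set G) ≤ L → L = M) := by
    intro x hx hox
    by_cases hZ : IsZGroup ↥(Cfsg.alphaCore M ⊓ Subgroup.centralizer ({x} : Set G))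
    · exact hcon x hx hox hZ
    · have hxM : x ∈ M := hPM ((mem_center_image_iff M P x).mp hx).1
      have hodd : Odd (Nat.card ↥(Cfsg.alphaCore M ⊓ Subgroup.centralizer ({x} : Set G))) :=
        Odd.of_dvd_nat hG.1 (Subgroup.card_subgroup_dvd_card _)
      have hr := not_rankLE_one_of_not_isZGroup hodd hZ
      have hce : Subgroup.centralizer ((Subgroup.zpowers x : Subgroup G) : Set G)
          = Subgroup.centralizer ({x} : Set G) := by
        rw [Subgroup.zpowers_eq_closure, Subgroup.centralizer_closure]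
      have hXM : Subgroup.zpowers x ≤ M := by
        rw [Subgroup.zpowers_le]
        exact hxM
      have hXα : ∀ r : ℕ, r.Prime → r ∣ Nat.card (Subgroup.zpowers x) → r ∉ Cfsg.alpha M := by
        intro r hr' hdvd
        rw [Nat.card_zpowers, hox] at hdvd
        have : r = p := (Nat.prime_dvd_prime_iff_eq hr' hpp).mp hdvd
        rw [this]
        exact hpα
      have h1 := h1406 M hM (Subgroup.zpowers x) hXM hXα (by rw [hce]; exact hr)
      rw [hce] at h1
      obtain ⟨L0, ⟨-, -⟩, huniq⟩ := h1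
      have hML0 : M = L0 := huniq M ⟨hM, inf_le_left⟩
      have hx1 : x ≠ 1 := by
        rintro rfl
        rw [orderOf_one] at hox
        exact hpp.one_lt.ne hox
      have hCtop : Subgroup.centralizer ({x} : Set G) ≠ ⊤ := by
        intro h
        have hzbot : Subgroup.zpowers x ≠ ⊥ := by
          intro h3
          exact hx1 (Subgroup.zpowers_eq_bot.mp h3)
        have hztop : Subgroup.zpowers x ≠ ⊤ := by
          intro h2
          rw [h2] at hXM
          exact hM.1 (top_le_iff.mp hXM)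
        apply normalizer_ne_top_of_simple hG hzbot hztop
        have h4 : Subgroup.centralizer ((Subgroup.zpowers x : Subgroup G) : Set G) ≤
            Subgroup.normalizer ((Subgroup.zpowers x : Subgroup G) : Set G) := by
          intro c hc
          rw [Subgroup.mem_centralizer_iff] at hc
          rw [Subgroup.mem_normalizer_iff]
          intro y
          constructor
          · intro hy'
            have h5 : c * y * c⁻¹ = y := by rw [← hc y hy']; group
            rw [h5]
            exact hy'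
          · intro hy'
            have h5 : c * (c * y * c⁻¹) * c⁻¹ = c * y * c⁻¹ := by
              rw [← hc _ hy']; group
            have h6 : c * y * c⁻¹ = y := mul_left_cancel (mul_right_cancel h5)
            rw [← h6]
            exact hy'
        rw [hce, h] at h4
        exact top_le_iff.mp h4
      obtain ⟨L1, hL1, hCL1⟩ := exists_coatom_ge hCtop
      have hL1M : L1 = M := by
        rw [hML0]
        exact huniq L1 ⟨hL1, inf_le_right.trans hCL1⟩
      refine ⟨hL1M ▸ hCL1, ?_⟩
      intro L hL hCL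
      rw [hML0]
      exact huniq L ⟨hL, inf_le_right.trans hCL⟩
  -- an element of order `p` in `Z(P)`
  obtain ⟨x0, hx0, hox0⟩ : ∃ x : G, x ∈ ((Subgroup.center ↥(P : Subgroup M)).map
      (P : Subgroup M).subtype).map M.subtype ∧ orderOf x = p := by
    have hPbot := P.ne_bot_of_dvd_card hpM
    have hPnt : Nontrivial (P : Subgroup M) := (Subgroup.nontrivial_iff_ne_bot _).mpr hPbot
    have hcnt : Nontrivial (Subgroup.center (P : Subgroup M)) := P.isPGroup'.center_nontrivial
    have hcdvd : p ∣ Nat.card (Subgroup.center (P : Subgroup M)) := by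
      have hcp : IsPGroup p (Subgroup.center (P : Subgroup M)) := P.isPGroup'.to_subgroup _
      obtain ⟨n, hn⟩ := hcp.exists_card_eq
      rw [hn]
      have hn0 : n ≠ 0 := by
        rintro rfl
        rw [pow_zero] at hn
        have : Subsingleton (Subgroup.center (P : Subgroup M)) :=
          (Nat.card_eq_one_iff_unique.mp hn).1
        exact not_subsingleton _ this
      exact dvd_pow_self p hn0
    obtain ⟨c, hc⟩ := exists_prime_orderOf_dvd_card' p hcdvd
    refine ⟨(((c : (P : Subgroup M)) : M) : G), ⟨_, ⟨c, c.2, rfl⟩, rfl⟩, ?_⟩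
    rw [Subgroup.orderOf_coe, Subgroup.orderOf_coe, Subgroup.orderOf_coe]
    exact hc
  -- `N_G(P) ≤ M`
  apply hp
  refine ⟨hpp, hpM, P, ?_⟩
  intro g hg
  have hx0' := (mem_center_image_iff M P x0).mp hx0
  have hg' : g⁻¹ ∈ Subgroup.normalizer (((P : Subgroup M).map M.subtype : Subgroup G) : Set G) :=
    Subgroup.inv_mem _ hg
  have hy : g * x0 * g⁻¹ ∈ ((Subgroup.center ↥(P : Subgroup M)).map
      (P : Subgroup M).subtype).map M.subtype := by
    rw [mem_center_image_iff]
    refine ⟨(Subgroup.mem_normalizer_iff.mp hg x0).mp hx0'.1, ?_⟩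
    intro u hu
    have hu' : g⁻¹ * u * g⁻¹⁻¹ ∈ (P : Subgroup M).map M.subtype :=
      (Subgroup.mem_normalizer_iff.mp hg' u).mp hu
    rw [inv_inv] at hu'
    have h1 := hx0'.2 _ hu'
    calc u * (g * x0 * g⁻¹) = g * ((g⁻¹ * u * g) * x0) * g⁻¹ := by group
      _ = g * (x0 * (g⁻¹ * u * g)) * g⁻¹ := by rw [h1]
      _ = g * x0 * g⁻¹ * u := by group
  have hoy : orderOf (g * x0 * g⁻¹) = p := by
    have := orderOf_injective (MulAut.conj g).toMonoidHom (MulAut.conj g).injective x0
    rw [← hox0, ← this]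
    rfl
  obtain ⟨hCx, -⟩ := hU x0 hx0 hox0
  obtain ⟨-, hUy⟩ := hU _ hy hoy
  have hco : IsCoatom (M.map (MulAut.conj g).toMonoidHom) :=
    ((MulAut.conj g).mapSubgroup.isCoatom_iff M).mpr hM
  have hCy : Subgroup.centralizer ({g * x0 * g⁻¹} : Set G) ≤ M.map (MulAut.conj g).toMonoidHom := by
    intro c hc
    have h1 : g⁻¹ * c * g ∈ Subgroup.centralizer ({x0} : Set G) := by
      rw [Subgroup.mem_centralizer_iff]
      intro y hy'
      rw [Set.mem_singleton_iff] at hy'
      subst hy'
      have h2 := Subgroup.mem_centralizer_iff.mp hc (g * y * g⁻¹) rfl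
      calc y * (g⁻¹ * c * g) = g⁻¹ * ((g * y * g⁻¹) * c) * g := by group
        _ = g⁻¹ * (c * (g * y * g⁻¹)) * g := by rw [h2]
        _ = g⁻¹ * c * g * y := by group
    refine ⟨g⁻¹ * c * g, hCx h1, ?_⟩
    show g * (g⁻¹ * c * g) * g⁻¹ = c
    group
  have hMg : M.map (MulAut.conj g).toMonoidHom = M := hUy _ hco hCy
  have hgN : g ∈ Subgroup.normalizer (M : Set G) := by
    rw [Subgroup.mem_normalizer_iff]
    intro h
    constructor
    · intro hh
      rw [← hMg]
      exact ⟨h, hh, rfl⟩
    · intro hh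
      rw [← hMg] at hh
      obtain ⟨m, hm, hmh⟩ := hh
      have : m = h := by
        have h3 : g * m * g⁻¹ = g * h * g⁻¹ := hmh
        exact mul_left_cancel (mul_right_cancel h3)
      rw [← this]
      exact hm
  rw [normalizer_coatom_eq hG M hM hM1] at hgN
  exact hgN

end Cfsg.Agent.Lib.Helper65.BG
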