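import Mathlib
import Cfsg.Agent.Lib.Helper65.BG.S1391Defs
import Cfsg.Agent.Lib.Helper35.BG.Hall
import Cfsg.Agent.Lib.Helper27.BG.SigmaBasic
import Cfsg.Agent.Lib.Helper67.BG.Basics
import Cfsg.Statements.S1391

/-!
# S1391 (tame embedding): assembly from the packages of `S1391Defs`
-/

set_option autoImplicit false

namespace Cfsg.Agent.Lib.Helper65.BG91

open Cfsg

universe u

theorem isComplIn_swap {G : Type u} [Group G] {A B M : Subgroup G} (h : IsComplIn A B M) :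
    IsComplIn B A M := by
  refine ⟨h.2.1, h.1, ?_, ?_⟩
  · rw [inf_comm]; exact h.2.2.1
  · intro m hm
    obtain ⟨a, ha, b, hb, hab⟩ := h.2.2.2 m⁻¹ (M.inv_mem hm)
    refine ⟨b⁻¹, B.inv_mem hb, a⁻¹, A.inv_mem ha, ?_⟩
    rw [← mul_inv_rev, ← hab, inv_inv]

/-- In a standard factorisation, `K ∩ U M_σ = 1`. -/
theorem sigmaDecomposition_inf_eq_bot {G : Type u} [Group G] [Finite G] {M K U : Subgroup G}
    (hσH : IsPiHallOf (sigma M) (sigmaCore M) M) (hKU : IsSigmaDecomposition M K U) :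
    K ⊓ (U ⊔ sigmaCore M) = ⊥ := by
  have hUH := Cfsg.Agent.Lib.Helper35.BG.isPiHallOf_of_sigmaDecomposition hσH hKU
  have hUM : U ≤ M := hKU.compl.1
  have hUn : U ≤ Subgroup.normalizer (sigmaCore M : Set G) :=
    hUM.trans (Cfsg.Agent.Lib.Helper67.BG.sigmaCore_normalizer M)
  have hdvd := Cfsg.Agent.Lib.Helper27.BG.card_sup_dvd_mul hUn
  apply Disjoint.eq_bot
  apply Subgroup.disjoint_of_coprime_natCard
  apply Nat.Coprime.of_dvd_right hdvd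
  apply Nat.Coprime.mul_right
  · apply Nat.Coprime.symm
    apply Nat.coprime_of_dvd
    intro p hp hpU hpK
    exact (hUH.2.1 p hp hpU).2.1 (hKU.hall.2.1 p hp hpK)
  · apply Nat.Coprime.symm
    apply Nat.coprime_of_dvd
    intro p hp hpS hpK
    have h1 : p ∈ kappa M := hKU.hall.2.1 p hp hpK
    exact h1.2.2.1 (hσH.2.1 p hp hpS)

/-- `A(M) ⊆ A₀(M)` in σ-language. -/
theorem sigmaA_subset_sigmaA0 {G : Type u} [Group G] [Finite G] {M K U : Subgroup G}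
    (hσH : IsPiHallOf (sigma M) (sigmaCore M) M) (hKU : IsSigmaDecomposition M K U)
    (hn : M ≤ Subgroup.normalizer ((U ⊔ sigmaCore M : Subgroup G) : Set G)) :
    sigmaA M U ⊆ sigmaA0 M K := by
  intro a ha
  refine ⟨ha.1, ?_⟩
  rintro ⟨k, hk, hk1, m, hm, rfl⟩
  apply hk1
  have hkN : k ∈ U ⊔ sigmaCore M := by
    have h1 := hn (M.inv_mem hm)
    rw [Subgroup.mem_normalizer_iff] at h1
    have h2 := (h1 (m * k * m⁻¹)).mp ha.2
    simpa [mul_assoc] using h2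
  have : k ∈ K ⊓ (U ⊔ sigmaCore M) := ⟨hk, hkN⟩
  rw [sigmaDecomposition_inf_eq_bot hσH hKU] at this
  exact Subgroup.mem_bot.mp this

theorem s1391_core {G : Type u} [Group G] [Finite G] (hG : Cfsg.IsMinSimpleOddOrder G)
    (h1350 : type_of% (@Cfsg.CfsgFrozen.S1350 G _ _ hG))
    (h1351 : type_of% (@Cfsg.CfsgFrozen.S1351 G _ _ hG))
    (h1352 : type_of% (@Cfsg.CfsgFrozen.S1352 G _ _ hG))
    (h1354 : type_of% (@Cfsg.CfsgFrozen.S1354 G _ _ hG))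
    (h1355 : type_of% (@Cfsg.CfsgFrozen.S1355 G _ _ hG))
    (h1361 : type_of% (@Cfsg.CfsgFrozen.S1361 G _ _ hG))
    (h1362 : type_of% (@Cfsg.CfsgFrozen.S1362 G _ _ hG))
    (h1365 : type_of% (@Cfsg.CfsgFrozen.S1365 G _ _ hG))
    (h1370 : type_of% (@Cfsg.CfsgFrozen.S1370 G _ _ hG))
    (h1371 : type_of% (@Cfsg.CfsgFrozen.S1371 G _ _ hG))
    (h1374 : type_of% (@Cfsg.CfsgFrozen.S1374 G _ _ hG))
    (h1375 : type_of% (@Cfsg.CfsgFrozen.S1375 G _ _ hG))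
    (h1376 : type_of% (@Cfsg.CfsgFrozen.S1376 G _ _ hG))
    (h1378 : type_of% (@Cfsg.CfsgFrozen.S1378 G _ _ hG))
    (h1380 : type_of% (@Cfsg.CfsgFrozen.S1380 G _ _ hG))
    (h1381 : type_of% (@Cfsg.CfsgFrozen.S1381 G _ _ hG))
    (h1382 : type_of% (@Cfsg.CfsgFrozen.S1382 G _ _ hG))
    (h1383 : type_of% (@Cfsg.CfsgFrozen.S1383 G _ _ hG))
    (h1403 : type_of% (@Cfsg.CfsgFrozen.S1403 G _ _ hG))
    (h1436 : type_of% (@Cfsg.CfsgFrozen.S1436 G _ _ hG))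
    (h1437 : type_of% (@Cfsg.CfsgFrozen.S1437 G _ _ hG))
    (pFrob : LemFrob.{u}) (pTR1 : LemTR1.{u}) (pTR2 : LemTR2.{u}) (pTR3 : LemTR3.{u})
    (pFus : LemFus.{u}) (pCent : LemCent.{u}) (pCop : LemCop.{u}) :
    type_of% (@Cfsg.CfsgFrozen.S1391 G _ _ hG) := by
  intro M hM X hX
  obtain ⟨⟨K, hK⟩, hKc⟩ := h1351 M hM
  obtain ⟨⟨U, hKU⟩, hUn⟩ := h1352 M hM K (hKc K hK) hK
  have hTR1 := pTR1 hG h1351 h1352 h1365 h1382 h1437 M hM
  have hTR2 := pTR2 hG h1351 h1352 h1355 h1365 h1380 h1382 h1437 M hM K U hKU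
  have hTR3 := pTR3 hG h1350 h1351 h1352 h1354 h1355 h1365 h1371 h1380 h1381 h1382 h1383 h1437
    M hM K U hKU
  have hsub : sigmaA M U ⊆ sigmaA0 M K :=
    sigmaA_subset_sigmaA0 (h1350 M hM).1 hKU (hUn U hKU)
  have hX0 : X ⊆ sigmaA0 M K \ {1} := by
    rcases hX with rfl | rfl
    · rw [hTR2]
      exact fun a ha => ⟨hsub ha.1, ha.2⟩
    · rw [hTR3]
  have key : ∀ x ∈ X, ¬ Subgroup.centralizer ({x} : Set G) ≤ M → x ∈ sigmaCore M ∧ x ≠ 1 := by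
    intro x hx hxM
    have h := hX0 hx
    exact ⟨pCent hG h1350 h1352 h1361 h1370 h1371 M hM K U hKU x h.1 h.2 hxM, h.2⟩
  refine ⟨?_, ?_, ?_⟩
  · intro x hx g hgx
    have h1 := hX0 hx
    have h2 := hX0 hgx
    exact pFus hG h1350 h1352 h1362 h1371 h1374 M hM K U hKU x h1.1 h1.2 g h2.1
  · intro x hx hxM
    obtain ⟨hxs, hx1⟩ := key x hx hxM
    refine ⟨?_, ?_⟩
    · show x ∈ (↑(typeCore M) : Set G) \ {1}
      rw [hTR1]
      exact ⟨hxs, hx1⟩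
    · obtain ⟨N, hN, huniq, -⟩ := h1375 M hM x hxs hx1 hxM
      exact ⟨N, hN, fun L hL => huniq L hL.1 hL.2⟩
  · intro x hx hxM L hL hxL
    obtain ⟨hxs, hx1⟩ := key x hx hxM
    obtain ⟨N, hN, huniq, hNF, hnorm, hcompl1, hcompl2, hlast⟩ := h1375 M hM x hxs hx1 hxM
    have hLN : L = N := huniq L hL hxL
    subst hLN
    obtain ⟨⟨K', hK'⟩, hKc'⟩ := h1351 L hL
    obtain ⟨⟨U', hKU'⟩, -⟩ := h1352 L hL K' (hKc' K' hK') hK'
    obtain ⟨hU'1, hxA, hxns⟩ := hlast K' U' hKU'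
    have hTR1L := pTR1 hG h1351 h1352 h1365 h1382 h1437 L hL
    have hTR2L := pTR2 hG h1351 h1352 h1355 h1365 h1380 h1382 h1437 L hL K' U' hKU'
    rw [← hNF]
    refine ⟨isComplIn_swap hcompl2, hnorm, isComplIn_swap hcompl1, ?_, ?_, ?_, ?_⟩
    · intro y hy
      have h := hX0 hy
      exact pCop hG h1350 h1351 h1352 h1375 h1378 h1403 h1436 M hM K U hKU x hxs hx1 hxM L hL hxL
        y h.1 h.2
    · refine ⟨?_, ?_⟩
      · rw [hTR2L]
        exact ⟨hxA, hx1⟩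
      · show x ∉ (↑(typeCore L) : Set G) \ {1}
        rw [hTR1L]
        exact fun h => hxns h.1
    · by_cases hK'1 : K' = ⊥
      · left
        exact (h1380 L hL K' U' hKU').mpr ⟨hK'1, hU'1⟩
      · right
        exact (h1381 L hL K' U' hKU').mpr ⟨hK'1, hU'1⟩
    · intro hII
      have hK'1 : K' ≠ ⊥ := ((h1381 L hL K' U' hKU').mp hII).1
      have hkappa : (kappa L).Nonempty := by
        have hcard : Nat.card K' ≠ 1 := by
          intro h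
          exact hK'1 (Subgroup.card_eq_one.mp h)
        obtain ⟨p, hp, hdvd⟩ := Nat.exists_prime_and_dvd hcard
        exact ⟨p, hK'.2.1 p hp hdvd⟩
      obtain ⟨-, ⟨E, hE, -⟩, -⟩ := h1376 M hM x hxs hx1 hxM L hL hxL hkappa
      exact ⟨E, hE, pFrob E hE⟩

end Cfsg.Agent.Lib.Helper65.BG91
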