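import Mathlib
import Cfsg.Agent.Lib.Helper65.BG.S1391Defs

/-!
# S1391 project: package Norm (pure)
-/

set_option autoImplicit false

namespace Cfsg.Agent.Lib.Helper65.BG91

open Cfsg

universe u

/-- The normalizer of a maximal subgroup of a simple group is itself (when it is not `⊤`). -/
theorem normalizer_coatom_eq {G : Type u} [Group G] (hG : Cfsg.IsMinSimpleOddOrder G)
    (M : Subgroup G) (hM : IsCoatom M) : Subgroup.normalizer (M : Set G) = M := by
  have hs : IsSimpleGroup G := hG.2.1
  have hle : M ≤ Subgroup.normalizer (M : Set G) := Subgroup.le_normalizer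
  rcases eq_or_lt_of_le hle with h | h
  · exact h.symm
  · exfalso
    have htop : Subgroup.normalizer (M : Set G) = ⊤ := hM.2 _ h
    have hn : M.Normal := Subgroup.normalizer_eq_top_iff.mp htop
    rcases hn.eq_bot_or_eq_top with h1 | h1
    · -- M = ⊥ is a coatom: then G has prime order hence is commutative
      apply hG.2.2.1
      constructor
      constructor
      intro a b
      have ha : Subgroup.zpowers a = ⊤ ∨ Subgroup.zpowers a = ⊥ := by
        by_cases h0 : Subgroup.zpowers a = ⊥
        · exact Or.inr h0
        · left
          apply hM.2
          rw [h1]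
          exact bot_lt_iff_ne_bot.mpr h0
      rcases ha with ha | ha
      · have hb : b ∈ Subgroup.zpowers a := by rw [ha]; trivial
        obtain ⟨k, rfl⟩ := Subgroup.mem_zpowers_iff.mp hb
        exact (Commute.zpow_right (Commute.refl a) k).eq
      · have : a = 1 := by
          have : a ∈ Subgroup.zpowers a := Subgroup.mem_zpowers a
          rw [ha] at this
          exact Subgroup.mem_bot.mp this
        subst this
        simp
    · exact hM.1 h1

theorem lemNorm : LemNorm.{u} := by
  intro G _ _ hG M hM S hSM hinv hne
  have hs : IsSimpleGroup G := hG.2.1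
  have h1 : M ≤ Subgroup.normalizer S := by
    intro m hm
    rw [Subgroup.mem_set_normalizer_iff]
    intro h
    constructor
    · intro hh
      exact hinv m hm h hh
    · intro hh
      have := hinv m⁻¹ (M.inv_mem hm) _ hh
      simpa [mul_assoc] using this
  rcases eq_or_lt_of_le h1 with h | h
  · exact h.symm
  · exfalso
    have htop : Subgroup.normalizer S = ⊤ := hM.2 _ h
    -- closure S is normal
    have hn : (Subgroup.closure S).Normal := by
      constructor
      intro n hn g
      have hg : g ∈ Subgroup.normalizer S := by rw [htop]; trivial
      rw [Subgroup.mem_set_normalizer_iff] at hg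
      induction hn using Subgroup.closure_induction with
      | mem x hx => exact Subgroup.subset_closure ((hg x).mp hx)
      | one => simp
      | mul x y _ _ hx hy =>
        have : g * (x * y) * g⁻¹ = (g * x * g⁻¹) * (g * y * g⁻¹) := by group
        rw [this]
        exact Subgroup.mul_mem _ hx hy
      | inv x _ hx =>
        have : g * x⁻¹ * g⁻¹ = (g * x * g⁻¹)⁻¹ := by group
        rw [this]
        exact Subgroup.inv_mem _ hx
    have hle : Subgroup.closure S ≤ M := (Subgroup.closure_le M).mpr hSM
    rcases hn.eq_bot_or_eq_top with h2 | h2
    · obtain ⟨s, hs1, hs2⟩ := hne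
      apply hs2
      have : s ∈ Subgroup.closure S := Subgroup.subset_closure hs1
      rw [h2] at this
      exact Subgroup.mem_bot.mp this
    · apply hM.1
      rw [h2] at hle
      exact top_le_iff.mp hle

end Cfsg.Agent.Lib.Helper65.BG91
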