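import Mathlib
import Cfsg.Agent.Lib.Helper65.BG.S1391Defs
import Cfsg.Agent.Lib.Helper65.BG.S1391Norm
import Cfsg.Agent.Lib.Helper67.BG.Basics
import Cfsg.Prelude.Def_OddOrderChar
import Cfsg.Statements.S1391
import Cfsg.Statements.S1537
import Cfsg.Statements.S1538

/-!
# S1537, S1538: corollaries of the tame-embedding theorem S1391
-/

set_option autoImplicit false

namespace Cfsg.Agent.Lib.Helper65.BG91

open Cfsg

universe u

section
variable {G : Type u} [Group G]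

theorem supportR_cases (M : Subgroup G) (x : G) :
    (∃ L : Subgroup G, IsCoatom L ∧ Subgroup.centralizer ({x} : Set G) ≤ L ∧
        ¬ Subgroup.centralizer ({x} : Set G) ≤ M ∧
        supportR M x = fittingHallOf L ⊓ Subgroup.centralizer ({x} : Set G)) ∨
      (¬ (¬ Subgroup.centralizer ({x} : Set G) ≤ M ∧
          ∃! L : Subgroup G, IsCoatom L ∧ Subgroup.centralizer ({x} : Set G) ≤ L) ∧
        supportR M x = ⊥) := by
  by_cases h : ¬ Subgroup.centralizer ({x} : Set G) ≤ M ∧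
      ∃! L : Subgroup G, IsCoatom L ∧ Subgroup.centralizer ({x} : Set G) ≤ L
  · left
    refine ⟨Classical.choose h.2.exists, (Classical.choose_spec h.2.exists).1,
      (Classical.choose_spec h.2.exists).2, h.1, ?_⟩
    unfold supportR
    rw [dif_pos h]
  · right
    refine ⟨h, ?_⟩
    unfold supportR
    rw [dif_neg h]

theorem fittingHallOf_le_self (M : Subgroup G) : fittingHallOf M ≤ M :=
  Subgroup.map_subtype_le _

theorem fittingHallOf_conj_mem (M : Subgroup G) {m s : G} (hm : m ∈ M) (hs : s ∈ fittingHallOf M) :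
    m * s * m⁻¹ ∈ fittingHallOf M := by
  obtain ⟨s', hs', rfl⟩ := hs
  refine ⟨⟨m, hm⟩ * s' * ⟨m, hm⟩⁻¹, ?_, rfl⟩
  exact (fittingHall_normal M).conj_mem s' hs' ⟨m, hm⟩

theorem fittingOf_le_self (M : Subgroup G) : fittingOf M ≤ M :=
  Subgroup.map_subtype_le _

theorem fittingOf_conj_mem (M : Subgroup G) {m s : G} (hm : m ∈ M) (hs : s ∈ fittingOf M) :
    m * s * m⁻¹ ∈ fittingOf M := by
  obtain ⟨s', hs', rfl⟩ := hs
  refine ⟨⟨m, hm⟩ * s' * ⟨m, hm⟩⁻¹, ?_, rfl⟩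
  have hn : (fittingSubgroup M).Normal := Subgroup.sSup_normal _ (fun _ h => h.1)
  exact hn.conj_mem s' hs' ⟨m, hm⟩

theorem commutator_conj_mem (M : Subgroup G) {m s : G} (hm : m ∈ M) (hs : s ∈ ⁅M, M⁆) :
    m * s * m⁻¹ ∈ ⁅M, M⁆ := by
  have hmap : M.map (MulAut.conj m).toMonoidHom = M := by
    apply le_antisymm
    · rintro _ ⟨y, hy, rfl⟩
      exact M.mul_mem (M.mul_mem hm hy) (M.inv_mem hm)
    · intro y hy
      refine ⟨m⁻¹ * y * m, M.mul_mem (M.mul_mem (M.inv_mem hm) hy) hm, ?_⟩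
      show m * (m⁻¹ * y * m) * m⁻¹ = y
      group
  have h1 : (⁅M, M⁆ : Subgroup G).map (MulAut.conj m).toMonoidHom = ⁅M, M⁆ := by
    rw [Subgroup.map_commutator, hmap]
  rw [← h1]
  exact ⟨s, hs, rfl⟩

theorem commutator_le_self (M : Subgroup G) : ⁅M, M⁆ ≤ M := by
  rw [Subgroup.commutator_le]
  intro a ha b hb
  exact M.mul_mem (M.mul_mem (M.mul_mem ha hb) (M.inv_mem ha)) (M.inv_mem hb)

theorem typeCore_le_self (M : Subgroup G) : typeCore M ≤ M := by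
  classical
  unfold typeCore
  split_ifs
  · exact commutator_le_self M
  · exact fittingHallOf_le_self M

theorem typeCore_conj_mem (M : Subgroup G) {m s : G} (hm : m ∈ M) (hs : s ∈ typeCore M) :
    m * s * m⁻¹ ∈ typeCore M := by
  classical
  unfold typeCore at hs ⊢
  split_ifs at hs ⊢
  · exact commutator_conj_mem M hm hs
  · exact fittingHallOf_conj_mem M hm hs

theorem conj_ne_one {m a : G} (ha : a ≠ 1) : m * a * m⁻¹ ≠ 1 := by
  intro h
  apply ha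
  have : a = m⁻¹ * (m * a * m⁻¹) * m := by group
  rw [this, h]
  group

/-- `A₁(M)`: basic properties. -/
theorem typeA1_basic (M : Subgroup G) :
    (1 : G) ∉ typeA1 M ∧ typeA1 M ⊆ (M : Set G) ∧ ∀ m ∈ M, ∀ a ∈ typeA1 M, m * a * m⁻¹ ∈ typeA1 M := by
  refine ⟨fun h => h.2 rfl, fun a ha => typeCore_le_self M ha.1, ?_⟩
  intro m hm a ha
  exact ⟨typeCore_conj_mem M hm ha.1, conj_ne_one ha.2⟩

/-- `A(M)`: basic properties. -/
theorem typeA_basic (M : Subgroup G) :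
    (1 : G) ∉ typeA M ∧ typeA M ⊆ (M : Set G) ∧ ∀ m ∈ M, ∀ a ∈ typeA M, m * a * m⁻¹ ∈ typeA M := by
  classical
  have hcomm : ∀ {m a x : G}, a * x = x * a →
      (m * a * m⁻¹) * (m * x * m⁻¹) = (m * x * m⁻¹) * (m * a * m⁻¹) := by
    intro m a x h
    have e1 : (m * a * m⁻¹) * (m * x * m⁻¹) = m * (a * x) * m⁻¹ := by group
    have e2 : (m * x * m⁻¹) * (m * a * m⁻¹) = m * (x * a) * m⁻¹ := by group
    rw [e1, e2, h]
  unfold typeA
  split_ifs with hI
  · refine ⟨fun h => h.2.1 rfl, fun a ha => ha.1, ?_⟩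
    rintro m hm a ⟨haM, ha1, x, hx, hx1, hax⟩
    exact ⟨M.mul_mem (M.mul_mem hm haM) (M.inv_mem hm), conj_ne_one ha1, m * x * m⁻¹,
      fittingHallOf_conj_mem M hm hx, conj_ne_one hx1, hcomm hax⟩
  · refine ⟨fun h => h.2.1 rfl, fun a ha => commutator_le_self M ha.1, ?_⟩
    rintro m hm a ⟨haM, ha1, x, hx, hx1, hax⟩
    exact ⟨commutator_conj_mem M hm haM, conj_ne_one ha1, m * x * m⁻¹,
      typeCore_conj_mem M hm hx, conj_ne_one hx1, hcomm hax⟩

/-- `A₀(M)`: basic properties. -/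
theorem typeA0_basic (M : Subgroup G) :
    (1 : G) ∉ typeA0 M ∧ typeA0 M ⊆ (M : Set G) ∧ ∀ m ∈ M, ∀ a ∈ typeA0 M, m * a * m⁻¹ ∈ typeA0 M := by
  obtain ⟨h1, h2, h3⟩ := typeA_basic M
  refine ⟨?_, ?_, ?_⟩
  · rintro (h | ⟨-, W₁, U, W₂, hP, m, hm, w, hw, hw1, hw2, hv⟩)
    · exact h1 h
    · apply hw1
      have : w = 1 := by
        have e : w = m⁻¹ * (m * w * m⁻¹) * m := by group
        rw [e, ← hv]
        group
      rw [this]
      exact W₁.one_mem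
  · rintro a (h | ⟨-, W₁, U, W₂, hP, m, hm, w, hw, hw1, hw2, rfl⟩)
    · exact h2 h
    · have hW : W₁ ⊔ W₂ ≤ M :=
        sup_le hP.W₁_compl.2.1 ((hP.W₂_le.trans inf_le_left).trans (fittingHallOf_le_self M))
      exact M.mul_mem (M.mul_mem hm (hW hw)) (M.inv_mem hm)
  · rintro m hm a (h | ⟨hI, W₁, U, W₂, hP, m', hm', w, hw, hw1, hw2, rfl⟩)
    · exact Or.inl (h3 m hm a h)
    · right
      refine ⟨hI, W₁, U, W₂, hP, m * m', M.mul_mem hm hm', w, hw, hw1, hw2, ?_⟩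
      group

end

/-- The Dade hypothesis for an `M`-invariant subset `A` of `A₀(M)` with fusion controlled by `M`,
from the conclusions (2), (3) of S1391 for `X = A₀(M)`. -/
theorem dade_of_subset {G : Type u} [Group G] [Finite G] (hG : Cfsg.IsMinSimpleOddOrder G)
    (h1391 : type_of% (@Cfsg.CfsgFrozen.S1391 G _ _ hG))
    (M : Subgroup G) (hM : IsCoatom M) (A : Set G) (hA0 : A ⊆ typeA0 M)
    (h1 : (1 : G) ∉ A) (h2 : A ⊆ (M : Set G)) (h3 : ∀ m ∈ M, ∀ a ∈ A, m * a * m⁻¹ ∈ A)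
    (hfus : ∀ a ∈ A, ∀ g : G, g * a * g⁻¹ ∈ A → ∃ x ∈ M, x * a * x⁻¹ = g * a * g⁻¹) :
    DadeHypothesis A M (supportR M) := by
  obtain ⟨-, hb, hc⟩ := h1391 M hM (typeA0 M) (Or.inr rfl)
  have hdata : ∀ a ∈ A, ∀ L : Subgroup G, IsCoatom L → Subgroup.centralizer ({a} : Set G) ≤ L →
      ¬ Subgroup.centralizer ({a} : Set G) ≤ M →
      supportR M a = fittingHallOf L ⊓ Subgroup.centralizer ({a} : Set G) →
      (∀ c ∈ Subgroup.centralizer ({a} : Set G), ∀ u ∈ supportR M a, c * u * c⁻¹ ∈ supportR M a) ∧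
      supportR M a ⊓ (M ⊓ Subgroup.centralizer ({a} : Set G)) = ⊥ ∧
      supportR M a ⊔ (M ⊓ Subgroup.centralizer ({a} : Set G)) = Subgroup.centralizer ({a} : Set G) ∧
      ∀ b ∈ A, Nat.Coprime (Nat.card (supportR M a))
        (Nat.card ↥(M ⊓ Subgroup.centralizer ({b} : Set G))) := by
    intro a ha L hL haL haM hR
    obtain ⟨-, hn, hcompl, hcop, -⟩ := hc a (hA0 ha) haM L hL haL
    rw [hR]
    refine ⟨?_, hcompl.2.2.1, ?_, ?_⟩
    · intro c hc' u hu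
      have := hn hc'
      rw [Subgroup.mem_normalizer_iff] at this
      exact (this u).mp hu
    · apply le_antisymm (sup_le hcompl.1 hcompl.2.1)
      intro c hc'
      obtain ⟨r, hr, b, hb', rfl⟩ := hcompl.2.2.2 c hc'
      exact Subgroup.mul_mem _ (Subgroup.mem_sup_left hr) (Subgroup.mem_sup_right hb')
    · intro b hb'
      exact Nat.Coprime.coprime_dvd_left (Subgroup.card_dvd_of_le inf_le_left) (hcop b (hA0 hb'))
  refine ⟨h1, h2, h3, hfus, ?_, ?_, ?_, ?_, ?_⟩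
  · intro a ha
    rcases supportR_cases M a with ⟨L, hL, haL, haM, hR⟩ | ⟨hn, hR⟩
    · rw [hR]; exact inf_le_right
    · rw [hR]; exact bot_le
  · intro a ha
    rcases supportR_cases M a with ⟨L, hL, haL, haM, hR⟩ | ⟨hn, hR⟩
    · exact (hdata a ha L hL haL haM hR).1
    · intro c hc' u hu
      rw [hR] at hu ⊢
      rw [Subgroup.mem_bot] at hu ⊢
      rw [hu]
      group
  · intro a ha
    rcases supportR_cases M a with ⟨L, hL, haL, haM, hR⟩ | ⟨hn, hR⟩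
    · exact (hdata a ha L hL haL haM hR).2.1
    · rw [hR]; exact bot_inf_eq _
  · intro a ha
    rcases supportR_cases M a with ⟨L, hL, haL, haM, hR⟩ | ⟨hn, hR⟩
    · exact (hdata a ha L hL haL haM hR).2.2.1
    · rw [hR, bot_sup_eq]
      apply inf_eq_right.mpr
      by_contra haM
      exact hn ⟨haM, (hb a (hA0 ha) haM).2⟩
  · intro a ha b hb'
    rcases supportR_cases M a with ⟨L, hL, haL, haM, hR⟩ | ⟨hn, hR⟩
    · exact (hdata a ha L hL haL haM hR).2.2.2 b hb'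
    · rw [hR]
      simp

theorem typeA1_subset_typeA {G : Type u} [Group G] [Finite G] (hG : Cfsg.IsMinSimpleOddOrder G)
    (h1351 : type_of% (@Cfsg.CfsgFrozen.S1351 G _ _ hG))
    (h1352 : type_of% (@Cfsg.CfsgFrozen.S1352 G _ _ hG))
    (h1355 : type_of% (@Cfsg.CfsgFrozen.S1355 G _ _ hG))
    (h1365 : type_of% (@Cfsg.CfsgFrozen.S1365 G _ _ hG))
    (h1380 : type_of% (@Cfsg.CfsgFrozen.S1380 G _ _ hG))
    (h1382 : type_of% (@Cfsg.CfsgFrozen.S1382 G _ _ hG))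
    (h1437 : type_of% (@Cfsg.CfsgFrozen.S1437 G _ _ hG))
    (pTR1 : LemTR1.{u}) (pTR2 : LemTR2.{u}) (M : Subgroup G) (hM : IsCoatom M) :
    typeA1 M ⊆ typeA M := by
  obtain ⟨⟨K, hK⟩, hKc⟩ := h1351 M hM
  obtain ⟨⟨U, hKU⟩, hUn⟩ := h1352 M hM K (hKc K hK) hK
  have hTR1 := pTR1 hG h1351 h1352 h1365 h1382 h1437 M hM
  have hTR2 := pTR2 hG h1351 h1352 h1355 h1365 h1380 h1382 h1437 M hM K U hKU
  intro a ha
  have ha' : a ∈ sigmaCore M := by
    have := ha.1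
    rw [hTR1] at this
    exact this
  rw [hTR2]
  exact ⟨⟨⟨Cfsg.Agent.Lib.Helper67.BG.sigmaCore_le M ha', a, ha', ha.2, rfl⟩,
    Subgroup.mem_sup_right ha'⟩, ha.2⟩

theorem s1537_core {G : Type u} [Group G] [Finite G] (hG : Cfsg.IsMinSimpleOddOrder G)
    (h1351 : type_of% (@Cfsg.CfsgFrozen.S1351 G _ _ hG))
    (h1352 : type_of% (@Cfsg.CfsgFrozen.S1352 G _ _ hG))
    (h1355 : type_of% (@Cfsg.CfsgFrozen.S1355 G _ _ hG))
    (h1365 : type_of% (@Cfsg.CfsgFrozen.S1365 G _ _ hG))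
    (h1380 : type_of% (@Cfsg.CfsgFrozen.S1380 G _ _ hG))
    (h1382 : type_of% (@Cfsg.CfsgFrozen.S1382 G _ _ hG))
    (h1437 : type_of% (@Cfsg.CfsgFrozen.S1437 G _ _ hG))
    (h1391 : type_of% (@Cfsg.CfsgFrozen.S1391 G _ _ hG))
    (pTR1 : LemTR1.{u}) (pTR2 : LemTR2.{u}) :
    type_of% (@Cfsg.CfsgFrozen.S1537 G _ _ hG) := by
  intro M hM A hA
  obtain ⟨⟨K, hK⟩, hKc⟩ := h1351 M hM
  obtain ⟨⟨U, hKU⟩, hUn⟩ := h1352 M hM K (hKc K hK) hK
  have hTR1 := pTR1 hG h1351 h1352 h1365 h1382 h1437 M hM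
  have hTR2 := pTR2 hG h1351 h1352 h1355 h1365 h1380 h1382 h1437 M hM K U hKU
  have h10 : typeA1 M ⊆ typeA M :=
    typeA1_subset_typeA hG h1351 h1352 h1355 h1365 h1380 h1382 h1437 pTR1 pTR2 M hM
  have h20 : typeA M ⊆ typeA0 M := Set.subset_union_left
  have hne : ∃ s ∈ typeA1 M, s ≠ 1 := by
    have hs : sigmaCore M ≠ ⊥ := by
      intro h
      obtain ⟨hF1, hF2, -⟩ := h1355 M hM
      apply hF1
      rw [h] at hF2
      exact le_bot_iff.mp hF2
    obtain ⟨s, hs2⟩ := (Subgroup.ne_bot_iff_exists_ne_one).mp hs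
    refine ⟨s, ⟨?_, ?_⟩, ?_⟩
    · rw [hTR1]; exact s.2
    · intro h
      apply hs2
      exact Subtype.ext h
    · intro h
      apply hs2
      exact Subtype.ext h
  have hfA := (h1391 M hM (typeA M) (Or.inl rfl)).1
  have hfA0 := (h1391 M hM (typeA0 M) (Or.inr rfl)).1
  rcases hA with rfl | rfl | rfl
  · obtain ⟨b1, b2, b3⟩ := typeA1_basic M
    refine ⟨lemNorm hG M hM _ b2 b3 hne, ?_⟩
    exact dade_of_subset hG h1391 M hM _ (h10.trans h20) b1 b2 b3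
      (fun a ha g hg => hfA a (h10 ha) g (h10 hg))
  · obtain ⟨b1, b2, b3⟩ := typeA_basic M
    obtain ⟨s, hs, hs1⟩ := hne
    refine ⟨lemNorm hG M hM _ b2 b3 ⟨s, h10 hs, hs1⟩, ?_⟩
    exact dade_of_subset hG h1391 M hM _ h20 b1 b2 b3 hfA
  · obtain ⟨b1, b2, b3⟩ := typeA0_basic M
    obtain ⟨s, hs, hs1⟩ := hne
    refine ⟨lemNorm hG M hM _ b2 b3 ⟨s, h20 (h10 hs), hs1⟩, ?_⟩
    exact dade_of_subset hG h1391 M hM _ (le_refl _) b1 b2 b3 hfA0

theorem s1538_core {G : Type u} [Group G] [Finite G] (hG : Cfsg.IsMinSimpleOddOrder G)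
    (h1351 : type_of% (@Cfsg.CfsgFrozen.S1351 G _ _ hG))
    (h1352 : type_of% (@Cfsg.CfsgFrozen.S1352 G _ _ hG))
    (h1355 : type_of% (@Cfsg.CfsgFrozen.S1355 G _ _ hG))
    (h1365 : type_of% (@Cfsg.CfsgFrozen.S1365 G _ _ hG))
    (h1380 : type_of% (@Cfsg.CfsgFrozen.S1380 G _ _ hG))
    (h1381 : type_of% (@Cfsg.CfsgFrozen.S1381 G _ _ hG))
    (h1382 : type_of% (@Cfsg.CfsgFrozen.S1382 G _ _ hG))
    (h1437 : type_of% (@Cfsg.CfsgFrozen.S1437 G _ _ hG))
    (h1391 : type_of% (@Cfsg.CfsgFrozen.S1391 G _ _ hG))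
    (pTR1 : LemTR1.{u}) (pTR2 : LemTR2.{u}) :
    type_of% (@Cfsg.CfsgFrozen.S1538 G _ _ hG) := by
  intro M hM hII
  have h37 := s1537_core hG h1351 h1352 h1355 h1365 h1380 h1382 h1437 h1391 pTR1 pTR2 M hM
  obtain ⟨⟨K, hK⟩, hKc⟩ := h1351 M hM
  obtain ⟨⟨U, hKU⟩, hUn⟩ := h1352 M hM K (hKc K hK) hK
  -- M is not of Type III or IV
  have hnot : ¬ (IsOfTypeIII M ∨ IsOfTypeIV M) := by
    intro h
    exact ((h1381 M hM K U hKU).mp hII).2 ((h1382 M hM K U hKU).mp h).2.1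
  have hcore : typeCore M = fittingHallOf M := by
    classical
    unfold typeCore
    rw [if_neg hnot]
  obtain ⟨W₁, U₁, W₂, hP, -, -, hTI, -⟩ := hII
  have hFle : fittingHallOf M ≤ fittingOf M := by
    rw [← hP.fitting_eq]
    exact le_sup_left
  -- centralizers of elements of A₀(M) lie in M
  have hcent : ∀ x ∈ typeA0 M, Subgroup.centralizer ({x} : Set G) ≤ M := by
    intro x hx
    by_contra hxM
    obtain ⟨hx1, -⟩ := (h1391 M hM (typeA0 M) (Or.inr rfl)).2.1 x hx hxM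
    have hxF : x ∈ fittingOf M := by
      apply hFle
      have := hx1.1
      rw [hcore] at this
      exact this
    have hx1' : x ≠ 1 := hx1.2
    have hNF : Subgroup.normalizer ((fittingOf M : Subgroup G) : Set G) = M :=
      lemNorm hG M hM _ (fittingOf_le_self M) (fun m hm s hs => fittingOf_conj_mem M hm hs)
        ⟨x, hxF, hx1'⟩
    apply hxM
    intro c hc
    by_contra hcM
    apply hx1'
    apply hTI c (by rw [hNF]; exact hcM) x hxF
    have : c * x * c⁻¹ = x := by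
      have h := Subgroup.mem_centralizer_iff.mp hc x (Set.mem_singleton x)
      rw [← h]
      group
    rw [this]
    exact hxF
  have hTIof : ∀ A : Set G, A ⊆ typeA0 M → (1 : G) ∉ A → Subgroup.normalizer A = M →
      (∀ a ∈ A, ∀ g : G, g * a * g⁻¹ ∈ A → ∃ x ∈ M, x * a * x⁻¹ = g * a * g⁻¹) →
      IsTISubset A := by
    intro A hA0 h1 hN hfus g hg x hx hgx
    exfalso
    apply hg
    rw [hN]
    obtain ⟨m, hm, hmx⟩ := hfus x hx g hgx
    have hc : m⁻¹ * g ∈ Subgroup.centralizer ({x} : Set G) := by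
      rw [Subgroup.mem_centralizer_iff]
      intro y hy
      rw [Set.mem_singleton_iff] at hy
      subst hy
      have e : m⁻¹ * g * y = m⁻¹ * (g * y * g⁻¹) * g := by group
      rw [e, ← hmx]
      group
    have := M.mul_mem hm (hcent x (hA0 hx) hc)
    simpa using this
  have d1 := h37 (typeA1 M) (Or.inl rfl)
  have d2 := h37 (typeA M) (Or.inr (Or.inl rfl))
  have d3 := h37 (typeA0 M) (Or.inr (Or.inr rfl))
  have h10 : typeA1 M ⊆ typeA M :=
    typeA1_subset_typeA hG h1351 h1352 h1355 h1365 h1380 h1382 h1437 pTR1 pTR2 M hM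
  have h20 : typeA M ⊆ typeA0 M := Set.subset_union_left
  exact ⟨⟨hTIof _ (le_refl _) d3.2.one_not_mem d3.1 d3.2.fusion, d3.1⟩,
    ⟨hTIof _ h20 d2.2.one_not_mem d2.1 d2.2.fusion, d2.1⟩,
    ⟨hTIof _ (h10.trans h20) d1.2.one_not_mem d1.1 d1.2.fusion, d1.1⟩⟩

end Cfsg.Agent.Lib.Helper65.BG91
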