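import Mathlib
import Cfsg.Agent.Lib.Helper65.BG.S1391Defs
import Cfsg.Agent.Lib.Helper65.BG.S1391Norm
import Cfsg.Agent.Lib.Helper65.BG.S1391Core
import Cfsg.Agent.Lib.Helper65.BG.S1537Core
import Cfsg.Agent.Lib.Helper85.BG.S1391TR3
import Cfsg.Agent.Lib.Helper78.BG.S1389Core
import Cfsg.Agent.Lib.Helper78.BG.S1390Core
import Cfsg.Statements.S1364
import Cfsg.Statements.S1537
import Cfsg.Statements.S1538

/-!
# S1537, S1538 without S1380 and without S1391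

The statement S1380 (`K = 1 ∧ U ≠ 1 → IsOfTypeI M`) may be out of reach (third alternative of
`IsOfTypeI` asks for `O_{p'}(M)` cyclic), and S1391 depends on it.  The Dade hypothesis for
`A₁(M)`, `A(M)`, `A₀(M)` (S1537) and the TI property for Type II (S1538) only need the inclusions
`A₁(M) ⊆ A(M) ⊆ A₀(M) ⊆ A₀(M)`-in-σ-language, which are proved here without S1380.
-/

set_option autoImplicit false

namespace Cfsg.Agent.Lib.Helper65.BG91

open Cfsg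

universe u

/-- A maximal subgroup of Type I has `K = 1` (forward half of S1380), from S1355 and S1364. -/
theorem typeI_kappaHall_eq_bot {G : Type u} [Group G] [Finite G] (hG : Cfsg.IsMinSimpleOddOrder G)
    (h1355 : type_of% (@Cfsg.CfsgFrozen.S1355 G _ _ hG))
    (h1364 : type_of% (@Cfsg.CfsgFrozen.S1364 G _ _ hG))
    (M : Subgroup G) (hM : IsCoatom M) (K U : Subgroup G) (hKU : IsSigmaDecomposition M K U)
    (hI : IsOfTypeI M) : K = ⊥ :=
  Cfsg.Agent.Lib.Helper78.BG.typeF_kappa_hall_eq_bot M K hI.1 hKU.hall (h1355 M hM).2.1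
    (fun hK1 => ⟨(h1364 M hM K U hKU hK1).2.1, (h1364 M hM K U hKU hK1).2.2.1⟩)

/-- `A(M) ⊆ (M̂_σ ∩ U M_σ) \ {1}`, without S1380. -/
theorem typeA_subset {G : Type u} [Group G] [Finite G] (hG : Cfsg.IsMinSimpleOddOrder G)
    (h1351 : type_of% (@Cfsg.CfsgFrozen.S1351 G _ _ hG))
    (h1352 : type_of% (@Cfsg.CfsgFrozen.S1352 G _ _ hG))
    (h1355 : type_of% (@Cfsg.CfsgFrozen.S1355 G _ _ hG))
    (h1364 : type_of% (@Cfsg.CfsgFrozen.S1364 G _ _ hG))
    (h1365 : type_of% (@Cfsg.CfsgFrozen.S1365 G _ _ hG))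
    (h1382 : type_of% (@Cfsg.CfsgFrozen.S1382 G _ _ hG))
    (h1437 : type_of% (@Cfsg.CfsgFrozen.S1437 G _ _ hG))
    (M : Subgroup G) (hM : IsCoatom M) (K U : Subgroup G) (hKU : IsSigmaDecomposition M K U) :
    typeA M ⊆ sigmaA M U \ {1} := by
  classical
  have hN0M : U ⊔ sigmaCore M ≤ M :=
    Cfsg.Agent.Lib.Helper85.BG.sup_sigmaCore_le_of_decomp M K U hKU
  have h55 := h1355 M hM
  by_cases hI : IsOfTypeI M
  · have hK := typeI_kappaHall_eq_bot hG h1355 h1364 M hM K U hKU hI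
    have hMN0 := Cfsg.Agent.Lib.Helper85.BG.le_sup_sigmaCore_of_bot M K U hKU hK
    unfold typeA
    rw [if_pos hI]
    rintro a ⟨haM, ha1, x, hx, hx1, hax⟩
    exact ⟨⟨⟨haM, x, h55.2.1 hx, hx1, hax⟩, hMN0 haM⟩, ha1⟩
  · have hT : typeCore M = sigmaCore M :=
      Cfsg.Agent.Lib.Helper85.BG.lemTR1 hG h1351 h1352 h1365 h1382 h1437 M hM
    unfold typeA
    rw [if_neg hI, hT]
    rintro a ⟨haD, ha1, x, hx, hx1, hax⟩
    have haM : a ∈ M := commutator_le_self M haD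
    refine ⟨⟨⟨haM, x, hx, hx1, hax⟩, ?_⟩, ha1⟩
    by_cases hK : K = ⊥
    · exact Cfsg.Agent.Lib.Helper85.BG.le_sup_sigmaCore_of_bot M K U hKU hK haM
    · have hD : ⁅M, M⁆ = U ⊔ sigmaCore M := (h1365 M hM K U hKU hK).1
      rw [← hD]
      exact haD

/-- `A₁(M) ⊆ A(M)`, without S1380. -/
theorem typeA1_subset_typeA' {G : Type u} [Group G] [Finite G] (hG : Cfsg.IsMinSimpleOddOrder G)
    (h1351 : type_of% (@Cfsg.CfsgFrozen.S1351 G _ _ hG))
    (h1352 : type_of% (@Cfsg.CfsgFrozen.S1352 G _ _ hG))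
    (h1355 : type_of% (@Cfsg.CfsgFrozen.S1355 G _ _ hG))
    (h1364 : type_of% (@Cfsg.CfsgFrozen.S1364 G _ _ hG))
    (h1365 : type_of% (@Cfsg.CfsgFrozen.S1365 G _ _ hG))
    (h1382 : type_of% (@Cfsg.CfsgFrozen.S1382 G _ _ hG))
    (h1437 : type_of% (@Cfsg.CfsgFrozen.S1437 G _ _ hG))
    (M : Subgroup G) (hM : IsCoatom M) : typeA1 M ⊆ typeA M := by
  classical
  obtain ⟨⟨K, hK⟩, hKc⟩ := h1351 M hM
  obtain ⟨⟨U, hKU⟩, -⟩ := h1352 M hM K (hKc K hK) hK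
  have hT : typeCore M = sigmaCore M :=
    Cfsg.Agent.Lib.Helper85.BG.lemTR1 hG h1351 h1352 h1365 h1382 h1437 M hM
  have h55 := h1355 M hM
  intro a ha
  have haσ : a ∈ sigmaCore M := by
    have := ha.1
    rw [hT] at this
    exact this
  have ha1 : a ≠ 1 := ha.2
  by_cases hI : IsOfTypeI M
  · have hK0 := typeI_kappaHall_eq_bot hG h1355 h1364 M hM K U hKU hI
    have hF : fittingHallOf M = sigmaCore M := by
      apply Cfsg.Agent.Lib.Helper85.BG.fittingHallOf_eq_sigmaCore_of_not_prime hG h1437 M hM K U hKU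
      rw [hK0, Subgroup.card_bot]
      exact Nat.not_prime_one
    unfold typeA
    rw [if_pos hI, hF]
    exact ⟨Cfsg.Agent.Lib.Helper67.BG.sigmaCore_le M haσ, ha1, a, haσ, ha1, rfl⟩
  · unfold typeA
    rw [if_neg hI, hT]
    exact ⟨h55.2.2.1 haσ, ha1, a, haσ, ha1, rfl⟩

/-- `A₀(M) ⊆ A₀(M)`-in-σ-language `\ {1}`, without S1380. -/
theorem typeA0_subset {G : Type u} [Group G] [Finite G] (hG : Cfsg.IsMinSimpleOddOrder G)
    (h1350 : type_of% (@Cfsg.CfsgFrozen.S1350 G _ _ hG))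
    (h1351 : type_of% (@Cfsg.CfsgFrozen.S1351 G _ _ hG))
    (h1352 : type_of% (@Cfsg.CfsgFrozen.S1352 G _ _ hG))
    (h1354 : type_of% (@Cfsg.CfsgFrozen.S1354 G _ _ hG))
    (h1355 : type_of% (@Cfsg.CfsgFrozen.S1355 G _ _ hG))
    (h1364 : type_of% (@Cfsg.CfsgFrozen.S1364 G _ _ hG))
    (h1365 : type_of% (@Cfsg.CfsgFrozen.S1365 G _ _ hG))
    (h1371 : type_of% (@Cfsg.CfsgFrozen.S1371 G _ _ hG))
    (h1382 : type_of% (@Cfsg.CfsgFrozen.S1382 G _ _ hG))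
    (h1437 : type_of% (@Cfsg.CfsgFrozen.S1437 G _ _ hG))
    (M : Subgroup G) (hM : IsCoatom M) (K U : Subgroup G) (hKU : IsSigmaDecomposition M K U) :
    typeA0 M ⊆ sigmaA0 M K \ {1} := by
  have hA := typeA_subset hG h1351 h1352 h1355 h1364 h1365 h1382 h1437 M hM K U hKU
  have hUn := (h1352 M hM K hKU.cyclic hKU.hall).2 U hKU
  have hsub : sigmaA M U ⊆ sigmaA0 M K := sigmaA_subset_sigmaA0 (h1350 M hM).1 hKU hUn
  have h55 := h1355 M hM
  rintro a (ha | ⟨-, W₁, U', W₂, hP, m, hm, w, hw, hw1, hw2, rfl⟩)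
  · exact ⟨hsub (hA ha).1, (hA ha).2⟩
  · have hK1 : K ≠ ⊥ :=
      Cfsg.Agent.Lib.Helper78.BG.typeP_sigma_decomposition_ne_bot M W₁ U' W₂ hP (h1350 M hM).1
        h55.2.1 h55.2.2.1 K hKU.hall
    obtain ⟨h71, -⟩ := h1371 M hM K U hKU hK1
    obtain ⟨n, hnM, hn1, hn2, hn3⟩ :=
      Cfsg.Agent.Lib.Helper85.BG.typeP_conj hG h1352 h1354 h1365 M hM K U hKU hK1 W₁ U' W₂ hP
    have hmem : m * w * m⁻¹ ∈ sigmaA0 M K \ sigmaA M U := by
      rw [← h71]
      refine ⟨m * n⁻¹, M.mul_mem hm (M.inv_mem hnM), n * w * n⁻¹, ⟨(hn3 w).mp hw, ?_⟩, by group⟩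
      rintro (h | h)
      · exact hw1 ((hn1 w).mpr h)
      · exact hw2 ((hn2 w).mpr h)
    refine ⟨hmem.1, ?_⟩
    intro h1
    apply hmem.2
    rw [Set.mem_singleton_iff] at h1
    rw [h1]
    obtain ⟨y, hy, hy1⟩ : ∃ y ∈ fittingHallOf M, y ≠ 1 := by
      by_contra hcon
      push Not at hcon
      exact h55.1 ((Subgroup.eq_bot_iff_forall _).mpr hcon)
    exact ⟨⟨M.one_mem, y, h55.2.1 hy, hy1, by rw [one_mul, mul_one]⟩, Subgroup.one_mem _⟩

/-- The Dade hypothesis for an `M`-invariant subset `A` of `A₀(M)` (σ-language), from the packages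
Fus, Cent, Cop and S1375 — no S1380, no S1391. -/
theorem dade_of_subset' {G : Type u} [Group G] [Finite G] (hG : Cfsg.IsMinSimpleOddOrder G)
    (h1350 : type_of% (@Cfsg.CfsgFrozen.S1350 G _ _ hG))
    (h1351 : type_of% (@Cfsg.CfsgFrozen.S1351 G _ _ hG))
    (h1352 : type_of% (@Cfsg.CfsgFrozen.S1352 G _ _ hG))
    (h1361 : type_of% (@Cfsg.CfsgFrozen.S1361 G _ _ hG))
    (h1362 : type_of% (@Cfsg.CfsgFrozen.S1362 G _ _ hG))
    (h1370 : type_of% (@Cfsg.CfsgFrozen.S1370 G _ _ hG))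
    (h1371 : type_of% (@Cfsg.CfsgFrozen.S1371 G _ _ hG))
    (h1374 : type_of% (@Cfsg.CfsgFrozen.S1374 G _ _ hG))
    (h1375 : type_of% (@Cfsg.CfsgFrozen.S1375 G _ _ hG))
    (h1378 : type_of% (@Cfsg.CfsgFrozen.S1378 G _ _ hG))
    (h1403 : type_of% (@Cfsg.CfsgFrozen.S1403 G _ _ hG))
    (h1436 : type_of% (@Cfsg.CfsgFrozen.S1436 G _ _ hG))
    (pFus : LemFus.{u}) (pCent : LemCent.{u}) (pCop : LemCop.{u})
    (M : Subgroup G) (hM : IsCoatom M) (K U : Subgroup G) (hKU : IsSigmaDecomposition M K U)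
    (A : Set G) (hA0 : A ⊆ sigmaA0 M K \ {1})
    (h2 : A ⊆ (M : Set G)) (h3 : ∀ m ∈ M, ∀ a ∈ A, m * a * m⁻¹ ∈ A) :
    DadeHypothesis A M (supportR M) := by
  have h1 : (1 : G) ∉ A := fun h => (hA0 h).2 rfl
  have hfus : ∀ a ∈ A, ∀ g : G, g * a * g⁻¹ ∈ A → ∃ x ∈ M, x * a * x⁻¹ = g * a * g⁻¹ := by
    intro a ha g hg
    exact pFus hG h1350 h1352 h1362 h1371 h1374 M hM K U hKU a (hA0 ha).1 (hA0 ha).2 g (hA0 hg).1
  have hσ : ∀ a ∈ A, ¬ Subgroup.centralizer ({a} : Set G) ≤ M → a ∈ sigmaCore M ∧ a ≠ 1 := by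
    intro a ha haM
    exact ⟨pCent hG h1350 h1352 h1361 h1370 h1371 M hM K U hKU a (hA0 ha).1 (hA0 ha).2 haM,
      (hA0 ha).2⟩
  have hdata : ∀ a ∈ A, ∀ L : Subgroup G, IsCoatom L → Subgroup.centralizer ({a} : Set G) ≤ L →
      ¬ Subgroup.centralizer ({a} : Set G) ≤ M →
      supportR M a = fittingHallOf L ⊓ Subgroup.centralizer ({a} : Set G) →
      (∀ c ∈ Subgroup.centralizer ({a} : Set G), ∀ u ∈ supportR M a, c * u * c⁻¹ ∈ supportR M a) ∧
      supportR M a ⊓ (M ⊓ Subgroup.centralizer ({a} : Set G)) = ⊥ ∧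
      supportR M a ⊔ (M ⊓ Subgroup.centralizer ({a} : Set G)) = Subgroup.centralizer ({a} : Set G) ∧
      ∀ b ∈ A, Nat.Coprime (Nat.card (supportR M a))
        (Nat.card ↥(M ⊓ Subgroup.centralizer ({b} : Set G))) := by
    intro a ha L hL haL haM hR
    obtain ⟨haσ, ha1⟩ := hσ a ha haM
    obtain ⟨N, hN, huniq, hNF, hn, hcompl1, -, -⟩ := h1375 M hM a haσ ha1 haM
    have hLN : L = N := huniq L hL haL
    subst hLN
    have hcompl := isComplIn_swap hcompl1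
    rw [hR, ← hNF]
    refine ⟨?_, hcompl.2.2.1, ?_, ?_⟩
    · intro c hc' u hu
      have := hn hc'
      rw [Subgroup.mem_normalizer_iff] at this
      exact (this u).mp hu
    · apply le_antisymm (sup_le hcompl.1 hcompl.2.1)
      intro c hc'
      obtain ⟨r, hr, b, hb', rfl⟩ := hcompl.2.2.2 c hc'
      exact Subgroup.mul_mem _ (Subgroup.mem_sup_left hr) (Subgroup.mem_sup_right hb')
    · intro b hb'
      exact Nat.Coprime.coprime_dvd_left (Subgroup.card_dvd_of_le inf_le_left)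
        (pCop hG h1350 h1351 h1352 h1375 h1378 h1403 h1436 M hM K U hKU a haσ ha1 haM L hL haL
          b (hA0 hb').1 (hA0 hb').2)
  refine ⟨h1, h2, h3, hfus, ?_, ?_, ?_, ?_, ?_⟩
  · intro a ha
    rcases supportR_cases M a with ⟨L, hL, haL, haM, hR⟩ | ⟨hn, hR⟩
    · rw [hR]; exact inf_le_right
    · rw [hR]; exact bot_le
  · intro a ha
    rcases supportR_cases M a with ⟨L, hL, haL, haM, hR⟩ | ⟨hn, hR⟩
    · exact (hdata a ha L hL haL haM hR).1
    · intro c hc' u hu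
      rw [hR] at hu ⊢
      rw [Subgroup.mem_bot] at hu ⊢
      rw [hu]
      group
  · intro a ha
    rcases supportR_cases M a with ⟨L, hL, haL, haM, hR⟩ | ⟨hn, hR⟩
    · exact (hdata a ha L hL haL haM hR).2.1
    · rw [hR]; exact bot_inf_eq _
  · intro a ha
    rcases supportR_cases M a with ⟨L, hL, haL, haM, hR⟩ | ⟨hn, hR⟩
    · exact (hdata a ha L hL haL haM hR).2.2.1
    · rw [hR, bot_sup_eq]
      apply inf_eq_right.mpr
      by_contra haM
      obtain ⟨haσ, ha1⟩ := hσ a ha haM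
      obtain ⟨N, hN, huniq, -⟩ := h1375 M hM a haσ ha1 haM
      exact hn ⟨haM, N, hN, fun L hL => huniq L hL.1 hL.2⟩
  · intro a ha b hb'
    rcases supportR_cases M a with ⟨L, hL, haL, haM, hR⟩ | ⟨hn, hR⟩
    · exact (hdata a ha L hL haL haM hR).2.2.2 b hb'
    · rw [hR]
      simp

/-- S1537 from the statements S1350–S1437 listed and the packages Fus, Cent, Cop
(no S1380, no S1391). -/
theorem s1537_core' {G : Type u} [Group G] [Finite G] (hG : Cfsg.IsMinSimpleOddOrder G)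
    (h1350 : type_of% (@Cfsg.CfsgFrozen.S1350 G _ _ hG))
    (h1351 : type_of% (@Cfsg.CfsgFrozen.S1351 G _ _ hG))
    (h1352 : type_of% (@Cfsg.CfsgFrozen.S1352 G _ _ hG))
    (h1354 : type_of% (@Cfsg.CfsgFrozen.S1354 G _ _ hG))
    (h1355 : type_of% (@Cfsg.CfsgFrozen.S1355 G _ _ hG))
    (h1361 : type_of% (@Cfsg.CfsgFrozen.S1361 G _ _ hG))
    (h1362 : type_of% (@Cfsg.CfsgFrozen.S1362 G _ _ hG))
    (h1364 : type_of% (@Cfsg.CfsgFrozen.S1364 G _ _ hG))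
    (h1365 : type_of% (@Cfsg.CfsgFrozen.S1365 G _ _ hG))
    (h1370 : type_of% (@Cfsg.CfsgFrozen.S1370 G _ _ hG))
    (h1371 : type_of% (@Cfsg.CfsgFrozen.S1371 G _ _ hG))
    (h1374 : type_of% (@Cfsg.CfsgFrozen.S1374 G _ _ hG))
    (h1375 : type_of% (@Cfsg.CfsgFrozen.S1375 G _ _ hG))
    (h1378 : type_of% (@Cfsg.CfsgFrozen.S1378 G _ _ hG))
    (h1382 : type_of% (@Cfsg.CfsgFrozen.S1382 G _ _ hG))
    (h1403 : type_of% (@Cfsg.CfsgFrozen.S1403 G _ _ hG))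
    (h1436 : type_of% (@Cfsg.CfsgFrozen.S1436 G _ _ hG))
    (h1437 : type_of% (@Cfsg.CfsgFrozen.S1437 G _ _ hG))
    (pFus : LemFus.{u}) (pCent : LemCent.{u}) (pCop : LemCop.{u}) :
    type_of% (@Cfsg.CfsgFrozen.S1537 G _ _ hG) := by
  intro M hM A hA
  obtain ⟨⟨K, hK⟩, hKc⟩ := h1351 M hM
  obtain ⟨⟨U, hKU⟩, hUn⟩ := h1352 M hM K (hKc K hK) hK
  have hTR1 := Cfsg.Agent.Lib.Helper85.BG.lemTR1 hG h1351 h1352 h1365 h1382 h1437 M hM
  have h10 : typeA1 M ⊆ typeA M :=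
    typeA1_subset_typeA' hG h1351 h1352 h1355 h1364 h1365 h1382 h1437 M hM
  have h20 : typeA M ⊆ typeA0 M := Set.subset_union_left
  have h30 : typeA0 M ⊆ sigmaA0 M K \ {1} :=
    typeA0_subset hG h1350 h1351 h1352 h1354 h1355 h1364 h1365 h1371 h1382 h1437 M hM K U hKU
  have hne : ∃ s ∈ typeA1 M, s ≠ 1 := by
    have hs : sigmaCore M ≠ ⊥ := by
      intro h
      obtain ⟨hF1, hF2, -⟩ := h1355 M hM
      apply hF1
      rw [h] at hF2
      exact le_bot_iff.mp hF2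
    obtain ⟨s, hs2⟩ := (Subgroup.ne_bot_iff_exists_ne_one).mp hs
    refine ⟨s, ⟨?_, ?_⟩, ?_⟩
    · rw [hTR1]; exact s.2
    · intro h
      apply hs2
      exact Subtype.ext h
    · intro h
      apply hs2
      exact Subtype.ext h
  have hdade : ∀ A : Set G, A ⊆ typeA0 M → A ⊆ (M : Set G) →
      (∀ m ∈ M, ∀ a ∈ A, m * a * m⁻¹ ∈ A) → DadeHypothesis A M (supportR M) := by
    intro A hA0 h2 h3
    exact dade_of_subset' hG h1350 h1351 h1352 h1361 h1362 h1370 h1371 h1374 h1375 h1378 h1403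
      h1436 pFus pCent pCop M hM K U hKU A (hA0.trans h30) h2 h3
  rcases hA with rfl | rfl | rfl
  · obtain ⟨b1, b2, b3⟩ := typeA1_basic M
    exact ⟨lemNorm hG M hM _ b2 b3 hne, hdade _ (h10.trans h20) b2 b3⟩
  · obtain ⟨b1, b2, b3⟩ := typeA_basic M
    obtain ⟨s, hs, hs1⟩ := hne
    exact ⟨lemNorm hG M hM _ b2 b3 ⟨s, h10 hs, hs1⟩, hdade _ h20 b2 b3⟩
  · obtain ⟨b1, b2, b3⟩ := typeA0_basic M
    obtain ⟨s, hs, hs1⟩ := hne
    exact ⟨lemNorm hG M hM _ b2 b3 ⟨s, h20 (h10 hs), hs1⟩, hdade _ (le_refl _) b2 b3⟩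

/-- S1538 from the statements listed and the packages Fus, Cent, Cop (no S1380, no S1391). -/
theorem s1538_core' {G : Type u} [Group G] [Finite G] (hG : Cfsg.IsMinSimpleOddOrder G)
    (h1350 : type_of% (@Cfsg.CfsgFrozen.S1350 G _ _ hG))
    (h1351 : type_of% (@Cfsg.CfsgFrozen.S1351 G _ _ hG))
    (h1352 : type_of% (@Cfsg.CfsgFrozen.S1352 G _ _ hG))
    (h1354 : type_of% (@Cfsg.CfsgFrozen.S1354 G _ _ hG))
    (h1355 : type_of% (@Cfsg.CfsgFrozen.S1355 G _ _ hG))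
    (h1361 : type_of% (@Cfsg.CfsgFrozen.S1361 G _ _ hG))
    (h1362 : type_of% (@Cfsg.CfsgFrozen.S1362 G _ _ hG))
    (h1364 : type_of% (@Cfsg.CfsgFrozen.S1364 G _ _ hG))
    (h1365 : type_of% (@Cfsg.CfsgFrozen.S1365 G _ _ hG))
    (h1370 : type_of% (@Cfsg.CfsgFrozen.S1370 G _ _ hG))
    (h1371 : type_of% (@Cfsg.CfsgFrozen.S1371 G _ _ hG))
    (h1374 : type_of% (@Cfsg.CfsgFrozen.S1374 G _ _ hG))
    (h1375 : type_of% (@Cfsg.CfsgFrozen.S1375 G _ _ hG))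
    (h1378 : type_of% (@Cfsg.CfsgFrozen.S1378 G _ _ hG))
    (h1381 : type_of% (@Cfsg.CfsgFrozen.S1381 G _ _ hG))
    (h1382 : type_of% (@Cfsg.CfsgFrozen.S1382 G _ _ hG))
    (h1403 : type_of% (@Cfsg.CfsgFrozen.S1403 G _ _ hG))
    (h1436 : type_of% (@Cfsg.CfsgFrozen.S1436 G _ _ hG))
    (h1437 : type_of% (@Cfsg.CfsgFrozen.S1437 G _ _ hG))
    (pFus : LemFus.{u}) (pCent : LemCent.{u}) (pCop : LemCop.{u}) :
    type_of% (@Cfsg.CfsgFrozen.S1538 G _ _ hG) := by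
  intro M hM hII
  have h37 := s1537_core' hG h1350 h1351 h1352 h1354 h1355 h1361 h1362 h1364 h1365 h1370 h1371
    h1374 h1375 h1378 h1382 h1403 h1436 h1437 pFus pCent pCop M hM
  obtain ⟨⟨K, hK⟩, hKc⟩ := h1351 M hM
  obtain ⟨⟨U, hKU⟩, hUn⟩ := h1352 M hM K (hKc K hK) hK
  have h10 : typeA1 M ⊆ typeA M :=
    typeA1_subset_typeA' hG h1351 h1352 h1355 h1364 h1365 h1382 h1437 M hM
  have h20 : typeA M ⊆ typeA0 M := Set.subset_union_left
  have h30 : typeA0 M ⊆ sigmaA0 M K \ {1} :=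
    typeA0_subset hG h1350 h1351 h1352 h1354 h1355 h1364 h1365 h1371 h1382 h1437 M hM K U hKU
  -- `M_F = M_σ` for Type II
  have hU1 : U ≠ ⊥ := ((h1381 M hM K U hKU).mp hII).2
  have hF : fittingHallOf M = sigmaCore M := by
    by_contra hne
    exact hU1 (h1437 M hM K U hKU hne).1
  obtain ⟨W₁, U₁, W₂, hP, -, -, hTI, -⟩ := hII
  have hFle : fittingHallOf M ≤ fittingOf M := by
    rw [← hP.fitting_eq]
    exact le_sup_left
  have hcent : ∀ x ∈ typeA0 M, Subgroup.centralizer ({x} : Set G) ≤ M := by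
    intro x hx
    by_contra hxM
    have hxσ : x ∈ sigmaCore M :=
      pCent hG h1350 h1352 h1361 h1370 h1371 M hM K U hKU x (h30 hx).1 (h30 hx).2 hxM
    have hxF : x ∈ fittingOf M := by
      apply hFle
      rw [hF]
      exact hxσ
    have hx1' : x ≠ 1 := (h30 hx).2
    have hNF : Subgroup.normalizer ((fittingOf M : Subgroup G) : Set G) = M :=
      lemNorm hG M hM _ (fittingOf_le_self M) (fun m hm s hs => fittingOf_conj_mem M hm hs)
        ⟨x, hxF, hx1'⟩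
    apply hxM
    intro c hc
    by_contra hcM
    apply hx1'
    apply hTI c (by rw [hNF]; exact hcM) x hxF
    have : c * x * c⁻¹ = x := by
      have h := Subgroup.mem_centralizer_iff.mp hc x (Set.mem_singleton x)
      rw [← h]
      group
    rw [this]
    exact hxF
  have hTIof : ∀ A : Set G, A ⊆ typeA0 M → (1 : G) ∉ A → Subgroup.normalizer A = M →
      (∀ a ∈ A, ∀ g : G, g * a * g⁻¹ ∈ A → ∃ x ∈ M, x * a * x⁻¹ = g * a * g⁻¹) →
      IsTISubset A := by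
    intro A hA0 h1 hN hfus g hg x hx hgx
    exfalso
    apply hg
    rw [hN]
    obtain ⟨m, hm, hmx⟩ := hfus x hx g hgx
    have hc : m⁻¹ * g ∈ Subgroup.centralizer ({x} : Set G) := by
      rw [Subgroup.mem_centralizer_iff]
      intro y hy
      rw [Set.mem_singleton_iff] at hy
      subst hy
      have e : m⁻¹ * g * y = m⁻¹ * (g * y * g⁻¹) * g := by group
      rw [e, ← hmx]
      group
    have := M.mul_mem hm (hcent x (hA0 hx) hc)
    simpa using this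
  have d1 := h37 (typeA1 M) (Or.inl rfl)
  have d2 := h37 (typeA M) (Or.inr (Or.inl rfl))
  have d3 := h37 (typeA0 M) (Or.inr (Or.inr rfl))
  exact ⟨⟨hTIof _ (le_refl _) d3.2.one_not_mem d3.1 d3.2.fusion, d3.1⟩,
    ⟨hTIof _ h20 d2.2.one_not_mem d2.1 d2.2.fusion, d2.1⟩,
    ⟨hTIof _ (h10.trans h20) d1.2.one_not_mem d1.1 d1.2.fusion, d1.1⟩⟩

end Cfsg.Agent.Lib.Helper65.BG91
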